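import Cfsg.Agent.H886.TW.Root

/-!
# Overgroups of `(SL_3 ⊗ SL_3).2` in characteristic two: conjugates of root elements (helper886)
-/

set_option autoImplicit false
set_option linter.unusedSectionVars false

namespace Cfsg.Agent.H886.TW

open Matrix Cfsg.Agent.H873 Cfsg.Agent.H872
open scoped Kronecker

variable {F : Type*} [Field F]

/-- Involutions of `GL_3` in characteristic two are transvections. -/
theorem exists_tv_of_sq (h2 : (2 : F) = 0) {A : GL (Fin 3) F} (hsq : A * A = 1) (hA : A ≠ 1) :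
    ∃ (w ψ : Fin 3 → F) (h : ψ ⬝ᵥ w = 0), w ≠ 0 ∧ ψ ≠ 0 ∧ A = tv w ψ h := by
  set N : Matrix (Fin 3) (Fin 3) F := (A : Matrix (Fin 3) (Fin 3) F) - 1 with hNdef
  have hsq' : (A : Matrix (Fin 3) (Fin 3) F) * (A : Matrix (Fin 3) (Fin 3) F) = 1 := by
    rw [← Units.val_mul, hsq, Units.val_one]
  have hN : N * N = 0 := by
    have e : N * N = (2 : F) • (1 - (A : Matrix (Fin 3) (Fin 3) F)) := by
      rw [hNdef, sub_mul, mul_sub, hsq', mul_one, one_mul, two_smul]
      abel
    rw [e, h2, zero_smul]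
  have hN0 : N ≠ 0 := by
    intro h0
    apply hA
    apply Units.ext
    rw [Units.val_one]
    exact sub_eq_zero.1 h0
  have hle : LinearMap.range (Matrix.toLin' N) ≤ LinearMap.ker (Matrix.toLin' N) := by
    rintro _ ⟨v, rfl⟩
    rw [LinearMap.mem_ker, Matrix.toLin'_apply, Matrix.toLin'_apply, mulVec_mulVec, hN, zero_mulVec]
  have h3 := LinearMap.finrank_range_add_finrank_ker (Matrix.toLin' N)
  rw [Module.finrank_fintype_fun_eq_card, Fintype.card_fin] at h3
  have h4 := Submodule.finrank_mono hle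
  obtain ⟨w, ψ, hwψ⟩ := exists_vecMulVec_of_finrank_ker (N := N) (by rw [Fintype.card_fin]; omega)
  have hw : w ≠ 0 := by rintro rfl; exact hN0 (by rw [hwψ]; simp)
  have hψ : ψ ≠ 0 := by rintro rfl; exact hN0 (by rw [hwψ]; simp)
  have h : ψ ⬝ᵥ w = 0 := by
    rw [hwψ, vecMulVec_mul_vecMulVec] at hN
    obtain ⟨i, hi⟩ := Function.ne_iff.1 hw
    obtain ⟨j, hj⟩ := Function.ne_iff.1 hψ
    have h5 := congrFun (congrFun hN i) j
    have h5' : w i * ((ψ ⬝ᵥ w) * ψ j) = 0 := h5
    rcases mul_eq_zero.1 h5' with h6 | h6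
    · exact absurd h6 hi
    · exact (mul_eq_zero.1 h6).resolve_right hj
  refine ⟨w, ψ, h, hw, hψ, ?_⟩
  apply Units.ext
  rw [coe_tv, ← hwψ, hNdef]
  abel

/-- The standard transvection. -/
def D3 (F : Type*) [Field F] (i j : Fin 3) (hij : i ≠ j) : GL (Fin 3) F :=
  tv (Pi.single i 1) (Pi.single j 1) (by simp [hij.symm])

theorem coe_D3 (i j : Fin 3) (hij : i ≠ j) : (D3 F i j hij : Matrix (Fin 3) (Fin 3) F) =
    1 + Matrix.single i j 1 := by
  rw [D3, coe_tv, Matrix.single_eq_single_vecMulVec_single]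

theorem exists_std {w ψ : Fin 3 → F} (h : ψ ⬝ᵥ w = 0) (hw : w ≠ 0) (hψ : ψ ≠ 0) :
    ∃ P : GL (Fin 3) F, (P : Matrix (Fin 3) (Fin 3) F).det = 1 ∧
      tv w ψ h = P * D3 F 0 2 (by decide) * P⁻¹ := by
  obtain ⟨y, hy⟩ := exists_dot_one hψ
  let c : Fin 3 → F := ![y 1 * w 2 - w 1 * y 2, w 0 * y 2 - y 0 * w 2, y 0 * w 1 - w 0 * y 1]
  rw [vec3_dotProduct] at h hy
  have hc : c ≠ 0 := by
    intro h0
    have h00 : y 1 * w 2 - w 1 * y 2 = 0 := congrFun h0 0
    have h01 : w 0 * y 2 - y 0 * w 2 = 0 := congrFun h0 1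
    have h02 : y 0 * w 1 - w 0 * y 1 = 0 := congrFun h0 2
    apply hw
    funext i
    fin_cases i
    · change w 0 = 0
      linear_combination (-w 0) * hy + y 0 * h - ψ 1 * h02 + ψ 2 * h01
    · change w 1 = 0
      linear_combination (-w 1) * hy + y 1 * h - ψ 2 * h00 + ψ 0 * h02
    · change w 2 = 0
      linear_combination (-w 2) * hy + y 2 * h - ψ 0 * h01 + ψ 1 * h00
  obtain ⟨x0, hx0⟩ := exists_dot_one hc
  let x : Fin 3 → F := x0 - (ψ ⬝ᵥ x0) • y
  have hψx : ψ ⬝ᵥ x = 0 := by
    simp only [x]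
    rw [dotProduct_sub, dotProduct_smul, smul_eq_mul, vec3_dotProduct ψ y, hy, mul_one, sub_self]
  have hcx : c ⬝ᵥ x = 1 := by
    have hcy : c ⬝ᵥ y = 0 := by
      rw [vec3_dotProduct]
      simp only [c, Matrix.cons_val_zero, Matrix.cons_val_one, Matrix.cons_val]
      ring
    simp only [x]
    rw [dotProduct_sub, dotProduct_smul, hcy, smul_zero, sub_zero, hx0]
  let P : Matrix (Fin 3) (Fin 3) F := !![w 0, x 0, y 0; w 1, x 1, y 1; w 2, x 2, y 2]
  have hP : P.det = 1 := by
    rw [det_fin_three, ← hcx, vec3_dotProduct]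
    simp only [P, c, Matrix.of_apply, Matrix.cons_val_zero, Matrix.cons_val_one, Matrix.cons_val,
      Matrix.cons_val', Matrix.cons_val_fin_one]
    ring
  let P' : GL (Fin 3) F := Matrix.GeneralLinearGroup.mk' P (invertibleOfNonzero (by rw [hP]; exact one_ne_zero))
  have hP' : (P' : Matrix (Fin 3) (Fin 3) F) = P := rfl
  refine ⟨P', hP, ?_⟩
  rw [eq_mul_inv_iff_mul_eq]
  apply Units.ext
  rw [Units.val_mul, Units.val_mul, coe_D3, coe_tv, hP', add_mul, mul_add, one_mul, mul_one,
    vecMulVec_mul]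
  congr 1
  rw [vec3_dotProduct] at hψx
  ext i j
  rw [Matrix.mul_apply, Fin.sum_univ_three, vecMulVec_apply, Matrix.vecMul, vec3_dotProduct]
  fin_cases i <;> fin_cases j <;>
    simp [P] <;> first
      | (right; linear_combination h) | (right; linear_combination hψx)
      | linear_combination (w 0) * h | linear_combination (w 0) * hψx | linear_combination (w 0) * hy
      | linear_combination (w 1) * h | linear_combination (w 1) * hψx | linear_combination (w 1) * hy
      | linear_combination (w 2) * h | linear_combination (w 2) * hψx | linear_combination (w 2) * hy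

/-- The fixed space of `D ⊗ D`. -/
theorem finrank_fixS_DD :
    Module.finrank F (fixS (kr (D3 F 0 2 (by decide), D3 F 0 2 (by decide)))) = 5 := by
  let ρ : (Fin 3 × Fin 3 → F) →ₗ[F] (Fin 4 → F) :=
    { toFun := fun v => ![v (2, 1), v (2, 2), v (1, 2), v (2, 0) + v (0, 2)]
      map_add' := fun v v' => by
        ext i; fin_cases i <;> simp; ring
      map_smul' := fun c v => by
        ext i; fin_cases i <;> simp; ring }
  have hker : fixS (kr (D3 F 0 2 (by decide), D3 F 0 2 (by decide))) = LinearMap.ker ρ := by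
    ext v
    rw [mem_fixS, LinearMap.mem_ker, coe_kr]
    have hent : ∀ i j : Fin 3, (((D3 F 0 2 (by decide) : GL (Fin 3) F) : Matrix (Fin 3) (Fin 3) F) ⊗ₖ
        ((D3 F 0 2 (by decide) : GL (Fin 3) F) : Matrix (Fin 3) (Fin 3) F) *ᵥ v) (i, j) =
        v (i, j) + (if i = 0 then v (2, j) else 0) + (if j = 0 then v (i, 2) else 0) +
          (if i = 0 ∧ j = 0 then v (2, 2) else 0) := by
      intro i j
      rw [mulVec, dotProduct, Fintype.sum_prod_type]
      simp only [kroneckerMap_apply, coe_D3, Matrix.add_apply, Fin.sum_univ_three]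
      fin_cases i <;> fin_cases j <;> simp [Matrix.one_apply] <;> ring
    constructor
    · intro hv
      have e : ∀ i j, v (i, j) + (if i = 0 then v (2, j) else 0) + (if j = 0 then v (i, 2) else 0) +
          (if i = 0 ∧ j = 0 then v (2, 2) else 0) = v (i, j) := fun i j => by
        rw [← hent, hv]
      have e01 := e 0 1
      have e02 := e 0 2
      have e10 := e 1 0
      have e00 := e 0 0
      simp at e01 e02 e10 e00
      ext i
      fin_cases i
      · simpa [ρ] using e01
      · simpa [ρ] using e02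
      · simpa [ρ] using e10
      · change v (2, 0) + v (0, 2) = 0
        rw [e02, add_zero, add_assoc, add_eq_left] at e00
        exact e00
    · intro hv
      have h0 : v (2, 1) = 0 := congrFun hv 0
      have h1 : v (2, 2) = 0 := congrFun hv 1
      have h2 : v (1, 2) = 0 := congrFun hv 2
      have h3 : v (2, 0) + v (0, 2) = 0 := congrFun hv 3
      funext ⟨i, j⟩
      rw [hent]
      fin_cases i <;> fin_cases j <;> simp [h0, h1, h2, add_assoc, h3]
  have hsurj : LinearMap.range ρ = ⊤ := by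
    rw [LinearMap.range_eq_top]
    intro f
    refine ⟨fun p => if p = (2, 1) then f 0 else if p = (2, 2) then f 1 else
      if p = (1, 2) then f 2 else if p = (2, 0) then f 3 else 0, ?_⟩
    ext i
    fin_cases i <;> simp [ρ]
  have h2 := LinearMap.finrank_range_add_finrank_ker ρ
  rw [hsurj, finrank_top, Module.finrank_fintype_fun_eq_card, Module.finrank_fintype_fun_eq_card,
    Fintype.card_prod, Fintype.card_fin, Fintype.card_fin, ← hker] at h2
  omega

theorem finrank_fixS_tv_tv {w ψ w' ψ' : Fin 3 → F} (h : ψ ⬝ᵥ w = 0) (hw : w ≠ 0) (hψ : ψ ≠ 0)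
    (h' : ψ' ⬝ᵥ w' = 0) (hw' : w' ≠ 0) (hψ' : ψ' ≠ 0) :
    Module.finrank F (fixS (kr (tv w ψ h, tv w' ψ' h'))) = 5 := by
  obtain ⟨P, -, hP⟩ := exists_std h hw hψ
  obtain ⟨P', -, hP'⟩ := exists_std h' hw' hψ'
  have e : kr (tv w ψ h, tv w' ψ' h') = kr (P, P') *
      kr (D3 F 0 2 (by decide), D3 F 0 2 (by decide)) * (kr (P, P'))⁻¹ := by
    rw [hP, hP', ← map_inv, ← map_mul, ← map_mul]
    rfl
  rw [e, finrank_fixS_conj, finrank_fixS_DD]

end Cfsg.Agent.H886.TW
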