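import Cfsg.Agent.H886.TW.Even3

/-!
# Overgroups of `(SL_3 ⊗ SL_3).2` in characteristic two: conjugates of root elements in `twr`
(helper886)
-/

set_option autoImplicit false
set_option linter.unusedSectionVars false

namespace Cfsg.Agent.H886.TW

open Matrix Cfsg.Agent.H873 Cfsg.Agent.H872
open scoped Kronecker

variable {F : Type*} [Field F]

/-- A Kronecker product whose right factor satisfies `S`. -/
def Lv (S : GL (Fin 3) F → Prop) (z : GL (Fin 3 × Fin 3) F) : Prop :=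
  ∃ X Y : GL (Fin 3) F, S Y ∧ z = kr (X, Y)

theorem Lv.comm {S S' : GL (Fin 3) F → Prop} (h : ∀ a b, S a → S b → S' (a * b * a⁻¹ * b⁻¹))
    {x y : GL (Fin 3 × Fin 3) F} (hx : Lv S x) (hy : Lv S y) : Lv S' (x * y * x⁻¹ * y⁻¹) := by
  obtain ⟨X, Y, h1, rfl⟩ := hx
  obtain ⟨X', Y', h1', rfl⟩ := hy
  refine ⟨X * X' * X⁻¹ * X'⁻¹, Y * Y' * Y⁻¹ * Y'⁻¹, h _ _ h1 h1', ?_⟩
  rw [← map_inv, ← map_inv, ← map_mul, ← map_mul, ← map_mul]
  rfl

/-- Level 0. -/
def S0 (Y : GL (Fin 3) F) : Prop :=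
  (Y : Matrix (Fin 3) (Fin 3) F) 1 0 = 0 ∧ (Y : Matrix (Fin 3) (Fin 3) F) 2 0 = 0 ∧
    (Y : Matrix (Fin 3) (Fin 3) F) 2 1 = 0

/-- Level 1. -/
def S1 (Y : GL (Fin 3) F) : Prop :=
  S0 Y ∧ (Y : Matrix (Fin 3) (Fin 3) F) 0 0 = 1 ∧ (Y : Matrix (Fin 3) (Fin 3) F) 1 1 = 1 ∧
    (Y : Matrix (Fin 3) (Fin 3) F) 2 2 = 1

/-- Level 2. -/
def S2 (Y : GL (Fin 3) F) : Prop :=
  S1 Y ∧ (Y : Matrix (Fin 3) (Fin 3) F) 0 1 = 0 ∧ (Y : Matrix (Fin 3) (Fin 3) F) 1 2 = 0

theorem S0.diag_ne {Y : GL (Fin 3) F} (h : S0 Y) : (Y : Matrix (Fin 3) (Fin 3) F) 0 0 ≠ 0 ∧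
    (Y : Matrix (Fin 3) (Fin 3) F) 1 1 ≠ 0 ∧ (Y : Matrix (Fin 3) (Fin 3) F) 2 2 ≠ 0 := by
  obtain ⟨h1, h2, h3⟩ := h
  have hdet : (Y : Matrix (Fin 3) (Fin 3) F).det ≠ 0 := Y.isUnit.map Matrix.detMonoidHom |>.ne_zero
  rw [det_fin_three, h1, h2, h3] at hdet
  refine ⟨fun h => hdet ?_, fun h => hdet ?_, fun h => hdet ?_⟩ <;> rw [h] <;> ring

theorem comm_entries (a b : GL (Fin 3) F) (i j : Fin 3) :
    ((a * b * a⁻¹ * b⁻¹ : GL (Fin 3) F) : Matrix (Fin 3) (Fin 3) F) i 0 *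
      ((b : Matrix (Fin 3) (Fin 3) F) * (a : Matrix (Fin 3) (Fin 3) F)) 0 j +
    ((a * b * a⁻¹ * b⁻¹ : GL (Fin 3) F) : Matrix (Fin 3) (Fin 3) F) i 1 *
      ((b : Matrix (Fin 3) (Fin 3) F) * (a : Matrix (Fin 3) (Fin 3) F)) 1 j +
    ((a * b * a⁻¹ * b⁻¹ : GL (Fin 3) F) : Matrix (Fin 3) (Fin 3) F) i 2 *
      ((b : Matrix (Fin 3) (Fin 3) F) * (a : Matrix (Fin 3) (Fin 3) F)) 2 j =
    ((a : Matrix (Fin 3) (Fin 3) F) * (b : Matrix (Fin 3) (Fin 3) F)) i j := by
  have h : (a * b * a⁻¹ * b⁻¹) * (b * a) = a * b := by group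
  have h1 : ((a * b * a⁻¹ * b⁻¹ * (b * a) : GL (Fin 3) F) : Matrix (Fin 3) (Fin 3) F) i j =
      ((a * b : GL (Fin 3) F) : Matrix (Fin 3) (Fin 3) F) i j := by rw [h]
  rw [Units.val_mul _ (b * a), Units.val_mul b a, Units.val_mul a b, Matrix.mul_apply,
    Fin.sum_univ_three] at h1
  exact h1

theorem comm01 (a b : GL (Fin 3) F) (ha : S0 a) (hb : S0 b) : S1 (a * b * a⁻¹ * b⁻¹) := by
  obtain ⟨a1, a2, a3⟩ := id ha
  obtain ⟨b1, b2, b3⟩ := id hb
  obtain ⟨na0, na1, na2⟩ := ha.diag_ne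
  obtain ⟨nb0, nb1, nb2⟩ := hb.diag_ne
  have e := comm_entries a b
  unfold S1 S0
  generalize ((a * b * a⁻¹ * b⁻¹ : GL (Fin 3) F) : Matrix (Fin 3) (Fin 3) F) = K at e ⊢
  have e00 := e 0 0
  have e10 := e 1 0
  have e20 := e 2 0
  have e11 := e 1 1
  have e21 := e 2 1
  have e22 := e 2 2
  simp only [Matrix.mul_apply, Fin.sum_univ_three, a1, a2, a3, b1, b2, b3, mul_zero, zero_mul,
    add_zero, zero_add] at e00 e10 e20 e11 e21 e22
  have k10 : K 1 0 = 0 := (mul_eq_zero.1 e10).resolve_right (mul_ne_zero nb0 na0)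
  have k20 : K 2 0 = 0 := (mul_eq_zero.1 e20).resolve_right (mul_ne_zero nb0 na0)
  have k00 : K 0 0 = 1 := by
    apply mul_right_cancel₀ (mul_ne_zero nb0 na0)
    rw [e00]; ring
  rw [k10, zero_mul, zero_add] at e11
  rw [k20, zero_mul, zero_add] at e21
  have k11 : K 1 1 = 1 := by
    apply mul_right_cancel₀ (mul_ne_zero nb1 na1)
    rw [e11]; ring
  have k21 : K 2 1 = 0 := (mul_eq_zero.1 e21).resolve_right (mul_ne_zero nb1 na1)
  rw [k20, k21, zero_mul, zero_mul, zero_add, zero_add] at e22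
  have k22 : K 2 2 = 1 := by
    apply mul_right_cancel₀ (mul_ne_zero nb2 na2)
    rw [e22]; ring
  exact ⟨⟨k10, k20, k21⟩, k00, k11, k22⟩

theorem comm12 (a b : GL (Fin 3) F) (ha : S1 a) (hb : S1 b) : S2 (a * b * a⁻¹ * b⁻¹) := by
  refine ⟨comm01 a b ha.1 hb.1, ?_⟩
  obtain ⟨⟨k10, k20, k21⟩, k00, k11, k22⟩ := comm01 a b ha.1 hb.1
  obtain ⟨⟨a1, a2, a3⟩, a4, a5, a6⟩ := ha
  obtain ⟨⟨b1, b2, b3⟩, b4, b5, b6⟩ := hb
  have e := comm_entries a b
  generalize ((a * b * a⁻¹ * b⁻¹ : GL (Fin 3) F) : Matrix (Fin 3) (Fin 3) F) = K at *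
  have e01 := e 0 1
  have e12 := e 1 2
  simp only [Matrix.mul_apply, Fin.sum_univ_three, a1, a3, b1, b2, b3, a4, a5, a6, b4, b5, b6,
    k10, k00, k11, mul_zero, zero_mul, add_zero, zero_add, mul_one, one_mul]
    at e01 e12
  constructor
  · linear_combination e01
  · linear_combination e12

theorem comm23 (a b : GL (Fin 3) F) (ha : S2 a) (hb : S2 b) : a * b * a⁻¹ * b⁻¹ = 1 := by
  obtain ⟨⟨⟨a1, a2, a3⟩, a4, a5, a6⟩, a7, a8⟩ := ha
  obtain ⟨⟨⟨b1, b2, b3⟩, b4, b5, b6⟩, b7, b8⟩ := hb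
  have h : a * b = b * a := by
    apply Units.ext
    rw [Units.val_mul, Units.val_mul]
    ext i j
    rw [Matrix.mul_apply, Matrix.mul_apply, Fin.sum_univ_three, Fin.sum_univ_three]
    fin_cases i <;> fin_cases j <;>
      simp [a1, a2, a3, b1, b2, b3, a4, a5, a6, b4, b5, b6, a7, a8, b7, b8]
    ring
  rw [h]
  group

/-- The root elements of `SL_3` are commutators. -/
theorem D3_comm {i j k : Fin 3} (hij : i ≠ j) (hik : i ≠ k) (hkj : k ≠ j) :
    D3 F i k hik * D3 F k j hkj * (D3 F i k hik)⁻¹ * (D3 F k j hkj)⁻¹ = D3 F i j hij := by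
  have h : D3 F i k hik * D3 F k j hkj = D3 F i j hij * (D3 F k j hkj * D3 F i k hik) := by
    apply Units.ext
    simp only [Units.val_mul, coe_D3]
    simp only [mul_add, add_mul, one_mul, mul_one]
    simp [Matrix.single_mul_single_same, hij.symm, hkj.symm]
    abel
  rw [h]
  group

theorem det_D3 {i j : Fin 3} (hij : i ≠ j) : (D3 F i j hij : Matrix (Fin 3) (Fin 3) F).det = 1 := by
  rw [D3, coe_tv]
  exact det_tv _ _ (by simp [hij.symm])

theorem exists_third {i j : Fin 3} (hij : i ≠ j) : ∃ k, i ≠ k ∧ k ≠ j := by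
  revert i j
  decide

/-- A homomorphism from `GL_3` with all transvections of level `0`. -/
theorem level (ζ : GL (Fin 3) F →* GL (Fin 3 × Fin 3) F)
    (h0 : ∀ i j (hij : i ≠ j), Lv S0 (ζ (D3 F i j hij))) :
    ∀ i j (hij : i ≠ j), ∃ X, ζ (D3 F i j hij) = kr (X, (1 : GL (Fin 3) F)) := by
  have step : ∀ S S' : GL (Fin 3) F → Prop, (∀ a b, S a → S b → S' (a * b * a⁻¹ * b⁻¹)) →
      (∀ i j (hij : i ≠ j), Lv S (ζ (D3 F i j hij))) → ∀ i j (hij : i ≠ j),
        Lv S' (ζ (D3 F i j hij)) := by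
    intro S S' hc h i j hij
    obtain ⟨k, hik, hkj⟩ := exists_third hij
    rw [← D3_comm hij hik hkj, map_mul, map_mul, map_mul, map_inv, map_inv]
    exact Lv.comm hc (h i k hik) (h k j hkj)
  have h1 := step _ _ comm01 h0
  have h2 := step _ _ comm12 h1
  have h3 := step _ (fun Y => Y = 1) comm23 h2
  intro i j hij
  obtain ⟨X, Y, rfl, h⟩ := h3 i j hij
  exact ⟨X, h⟩

theorem finrank_fixS_kr_one (X : GL (Fin 3) F) :
    Module.finrank F (fixS (kr (X, (1 : GL (Fin 3) F)))) = 3 * Module.finrank F (fixS X) := by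
  have h := finrank_fixS_one_kr (α := Fin 3) X
  rw [Fintype.card_fin] at h
  rw [← h, ← sw_kr_sw]
  have h1 := finrank_fixS_conj (sw : GL (Fin 3 × Fin 3) F) (kr ((1 : GL (Fin 3) F), X))
  rwa [sw_inv] at h1

theorem kr_right_injective {α : Type} [Fintype α] [DecidableEq α] [Nonempty α] {X Y Y' : GL α F}
    (h : kr (X, Y) = kr (X, Y')) : Y = Y' := by
  have hX : ∃ i j, (X : Matrix α α F) i j ≠ 0 := by
    by_contra hcon
    push Not at hcon
    have h1 : (X : Matrix α α F) = 0 := by ext i j; exact hcon i j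
    have h2 : (X : Matrix α α F) * ((X⁻¹ : GL α F) : Matrix α α F) = 1 := by
      rw [← Units.val_mul, mul_inv_cancel, Units.val_one]
    rw [h1, zero_mul] at h2
    obtain ⟨i⟩ := ‹Nonempty α›
    have := congrFun (congrFun h2 i) i
    simp at this
  obtain ⟨i, j, hij⟩ := hX
  apply Units.ext
  ext k l
  have h1 : (kr (X, Y) : Matrix (α × α) (α × α) F) (i, k) (j, l) =
      (kr (X, Y') : Matrix (α × α) (α × α) F) (i, k) (j, l) := by rw [h]
  rw [coe_kr, coe_kr, kroneckerMap_apply, kroneckerMap_apply] at h1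
  exact mul_left_cancel₀ hij h1

theorem coe_smul_gl {α : Type} [Fintype α] [DecidableEq α] (c : Fˣ) (X : GL α F) :
    ((c • X : GL α F) : Matrix α α F) = (c : F) • (X : Matrix α α F) := rfl

theorem smul_mul_gl {α : Type} [Fintype α] [DecidableEq α] (c : Fˣ) (X Y : GL α F) :
    (c • X) * Y = c • (X * Y) := by
  apply Units.ext
  rw [Units.val_mul, coe_smul_gl, coe_smul_gl, Units.val_mul, Matrix.smul_mul]

theorem mul_smul_gl {α : Type} [Fintype α] [DecidableEq α] (c : Fˣ) (X Y : GL α F) :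
    X * (c • Y) = c • (X * Y) := by
  apply Units.ext
  rw [Units.val_mul, coe_smul_gl, coe_smul_gl, Units.val_mul, Matrix.mul_smul]

theorem smul_one_inj {α : Type} [Fintype α] [DecidableEq α] [Nonempty α] {c d : Fˣ}
    (h : c • (1 : GL α F) = d • (1 : GL α F)) : c = d := by
  obtain ⟨i⟩ := ‹Nonempty α›
  have h1 : ((c • (1 : GL α F) : GL α F) : Matrix α α F) i i =
      ((d • (1 : GL α F) : GL α F) : Matrix α α F) i i := by rw [h]
  rw [coe_smul_gl, coe_smul_gl, Units.val_one, Matrix.smul_apply, Matrix.smul_apply, one_apply_eq,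
    smul_eq_mul, smul_eq_mul, mul_one, mul_one] at h1
  exact Units.ext h1

theorem kr_smul_smul {α : Type} [Fintype α] [DecidableEq α] (c : Fˣ) (X Y : GL α F) :
    kr (c⁻¹ • X, c • Y) = kr (X, Y) := by
  apply Units.ext
  rw [coe_kr, coe_kr, coe_smul_gl, coe_smul_gl, smul_kronecker, kronecker_smul, smul_smul,
    Units.inv_mul, one_smul]

/-- The kernel of the Kronecker product. -/
theorem kr_eq_one {α : Type} [Fintype α] [DecidableEq α] [Nonempty α] {X Y : GL α F}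
    (h : kr (X, Y) = 1) : ∃ c : Fˣ, X = c • (1 : GL α F) ∧ Y = c⁻¹ • (1 : GL α F) := by
  obtain ⟨k⟩ := ‹Nonempty α›
  have h1 : ∀ a b i j : α, (X : Matrix α α F) a i * (Y : Matrix α α F) b j =
      (1 : Matrix α α F) a i * (1 : Matrix α α F) b j := by
    intro a b i j
    have h2 : (kr (X, Y) : Matrix (α × α) (α × α) F) (a, b) (i, j) =
      ((1 : GL (α × α) F) : Matrix (α × α) (α × α) F) (a, b) (i, j) := by rw [h]
    rw [coe_kr, kroneckerMap_apply, Units.val_one] at h2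
    rw [h2, one_apply, one_apply, one_apply]
    by_cases ha : a = i <;> by_cases hb : b = j <;> simp [ha, hb]
  have hk := h1 k k k k
  rw [one_apply_eq, one_mul] at hk
  have hX : (X : Matrix α α F) k k ≠ 0 := left_ne_zero_of_mul_eq_one hk
  have hY : (Y : Matrix α α F) k k = ((X : Matrix α α F) k k)⁻¹ := by
    field_simp
    linear_combination hk
  refine ⟨Units.mk0 _ hX, ?_, ?_⟩
  · apply Units.ext
    rw [coe_smul_gl, Units.val_mk0, Units.val_one]
    ext i j
    have h3 := h1 i k j k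
    rw [one_apply_eq, mul_one, hY] at h3
    rw [Matrix.smul_apply, smul_eq_mul, ← h3]
    field_simp
  · apply Units.ext
    rw [coe_smul_gl, Units.val_inv_eq_inv_val, Units.val_mk0, Units.val_one]
    ext i j
    have h3 := h1 k i k j
    rw [one_apply_eq, one_mul] at h3
    rw [Matrix.smul_apply, smul_eq_mul, ← h3]
    field_simp

theorem rt_sq (h2 : (2 : F) = 0) {α : Type} [Fintype α] [DecidableEq α] (w ψ : α → F)
    (h : ψ ⬝ᵥ w = 0) : (rt w ψ h : GL (α × α) F) * rt w ψ h = 1 := by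
  have : tv w ψ h * tv w ψ h = 1 := by
    apply Units.ext
    rw [Units.val_mul, coe_tv, Units.val_one, mul_add, mul_one, add_mul, one_mul,
      vecMulVec_mul_vecMulVec, h]
    have e : vecMulVec w ψ + vecMulVec w ψ = 0 := by
      rw [← two_smul F, h2, zero_smul]
    rw [zero_smul, vecMulVec_zero, add_zero, add_assoc, e, add_zero]
  rw [rt, ← map_mul, Prod.mk_mul_mk, one_mul, this]
  exact map_one kr

theorem conj_sq {G : Type*} [Group G] {g s : G} (h : s * s = 1) :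
    (g * s * g⁻¹) * (g * s * g⁻¹) = 1 := by
  have : (g * s * g⁻¹) * (g * s * g⁻¹) = g * (s * s) * g⁻¹ := by group
  rw [this, h]; simp

/-- **Conjugates of root elements in `twr` are root elements, `q` even.** -/
theorem clo_even [Finite F] (h2 : (2 : F) = 0) {M : Subgroup (GL (Fin 3 × Fin 3) F)} (c : Ctx M) :
    Clo M := by
  have hring : ringChar F = 2 := by
    have h3 : ringChar F ∣ 2 := ringChar.dvd (by exact_mod_cast h2)
    rcases (Nat.dvd_prime Nat.prime_two).1 h3 with h4 | h4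
    · exact absurd h4 CharP.ringChar_ne_one
    · exact h4
  have hsqrt : ∀ a : Fˣ, ∃ b : Fˣ, b * b = a := by
    intro a
    obtain ⟨b, hb⟩ := FiniteField.isSquare_of_char_two hring (a : F)
    have hb0 : b ≠ 0 := by
      rintro rfl
      exact a.ne_zero (by rw [hb, zero_mul])
    exact ⟨Units.mk0 b hb0, Units.ext hb.symm⟩
  intro g hg w ψ h hw hψ hx
  have hxx := conj_sq (g := g) (rt_sq h2 w ψ h)
  have hfix := finrank_fixS_rt (α := Fin 3) h hw hψ
  rw [← finrank_fixS_conj g, Fintype.card_fin] at hfix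
  rcases hx with hx | hx
  · obtain ⟨⟨A, B⟩, hAB⟩ := hx
    by_cases hA : ∃ t : F, (A : Matrix (Fin 3) (Fin 3) F) = t • (1 : Matrix (Fin 3) (Fin 3) F)
    · obtain ⟨t, ht⟩ := hA
      exact isRoot_of_scalar_left h hw hψ hAB.symm ht
    by_cases hB : ∃ t : F, (B : Matrix (Fin 3) (Fin 3) F) = t • (1 : Matrix (Fin 3) (Fin 3) F)
    · obtain ⟨t, ht⟩ := hB
      exact isRoot_of_scalar_right h hw hψ hAB.symm ht
    exfalso
    rw [← hAB, ← map_mul, Prod.mk_mul_mk] at hxx
    obtain ⟨b, hb1, hb2⟩ := kr_eq_one hxx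
    obtain ⟨d, rfl⟩ := hsqrt b
    have h3 : (d⁻¹ • A) * (d⁻¹ • A) = 1 := by
      rw [smul_mul_gl, mul_smul_gl, hb1, smul_smul, smul_smul,
        ← _root_.mul_inv_rev, inv_mul_cancel, one_smul]
    have h4 : (d • B) * (d • B) = 1 := by
      rw [smul_mul_gl, mul_smul_gl, hb2, smul_smul, smul_smul, mul_inv_cancel, one_smul]
    have hA1 : d⁻¹ • A ≠ 1 := by
      intro h5
      apply hA
      refine ⟨(d : F), ?_⟩
      have : A = d • (1 : GL (Fin 3) F) := by rw [← h5, smul_smul, mul_inv_cancel, one_smul]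
      rw [this, coe_smul_gl, Units.val_one]
    have hB1 : d • B ≠ 1 := by
      intro h5
      apply hB
      refine ⟨((d⁻¹ : Fˣ) : F), ?_⟩
      have : B = d⁻¹ • (1 : GL (Fin 3) F) := by rw [← h5, smul_smul, inv_mul_cancel, one_smul]
      rw [this, coe_smul_gl, Units.val_one]
    obtain ⟨w₁, ψ₁, h₁, hw₁, hψ₁, e₁⟩ := exists_tv_of_sq h2 h3 hA1
    obtain ⟨w₂, ψ₂, h₂, hw₂, hψ₂, e₂⟩ := exists_tv_of_sq h2 h4 hB1
    have h5 := finrank_fixS_tv_tv h₁ hw₁ hψ₁ h₂ hw₂ hψ₂
    rw [← e₁, ← e₂, kr_smul_smul, hAB] at h5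
    omega
  · exfalso
    obtain ⟨⟨A, B⟩, hAB⟩ := hx
    obtain ⟨P, hP, hPe⟩ := exists_std h hw hψ
    have hPM : kr ((1 : GL (Fin 3) F), P) ∈ M := c.sl _ _ (by simp) hP
    set g' := g * kr ((1 : GL (Fin 3) F), P) with hg'
    have hg'M : g' ∈ M := M.mul_mem hg hPM
    have hD2 : (Pi.single 2 1 : Fin 3 → F) ⬝ᵥ Pi.single 0 1 = 0 := by simp
    set s : GL (Fin 3 × Fin 3) F := rt (Pi.single 0 1) (Pi.single 2 1) hD2 with hs
    have hs' : s = kr ((1 : GL (Fin 3) F), D3 F 0 2 (by decide)) := rfl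
    have hconj : g' * s * g'⁻¹ = g * rt w ψ h * g⁻¹ := by
      rw [rt, hPe, hg', hs', _root_.mul_inv_rev]
      have : kr ((1 : GL (Fin 3) F), P * D3 F 0 2 (by decide) * P⁻¹) =
          kr ((1 : GL (Fin 3) F), P) * kr ((1 : GL (Fin 3) F), D3 F 0 2 (by decide)) *
            (kr ((1 : GL (Fin 3) F), P))⁻¹ := by
        rw [← map_inv, ← map_mul, ← map_mul]
        congr 1
        simp
      rw [this]
      simp only [mul_assoc]
    have hx1 : g' * s * g'⁻¹ = kr (A, B) * sw := by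
      rw [hconj, hAB, mul_assoc _ sw sw, sw_mul_self, mul_one]
    -- `B = A⁻¹`
    have hBA : B = A⁻¹ := by
      rw [← hconj, hx1] at hxx
      have e : kr (A, B) * sw * (kr (A, B) * sw) = kr (A * B, B * A) := by
        calc kr (A, B) * sw * (kr (A, B) * sw) = kr (A, B) * (sw * kr (A, B) * sw) := by
              simp only [mul_assoc]
          _ = _ := by rw [sw_kr_sw, ← map_mul]; rfl
      rw [e] at hxx
      obtain ⟨b, hb1, hb2⟩ := kr_eq_one hxx
      have hB : B = b • A⁻¹ := by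
        calc B = A⁻¹ * (A * B) := by group
          _ = _ := by rw [hb1, mul_smul_gl, mul_one]
      have h3 : b • (1 : GL (Fin 3) F) = b⁻¹ • (1 : GL (Fin 3) F) := by
        rw [← hb2, hB, smul_mul_gl, inv_mul_cancel]
      have h4 := smul_one_inj h3
      have h5 : (b : F) * (b : F) = 1 := by
        have h6 : b * b = 1 := by
          nth_rewrite 1 [h4]
          exact inv_mul_cancel b
        rw [← Units.val_mul, h6, Units.val_one]
      have h6 : b = 1 := by
        have h7 : ((b : F) - 1) * ((b : F) - 1) = 0 := by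
          linear_combination h5 + (1 - (b : F)) * h2
        exact Units.ext (sub_eq_zero.1 (mul_self_eq_zero.1 h7))
      rw [hB, h6, one_smul]
    subst hBA
    let ζ : GL (Fin 3) F →* GL (Fin 3 × Fin 3) F :=
      (MulAut.conj g'⁻¹).toMonoidHom.comp
        (kr.comp ((MulAut.conj A).toMonoidHom.prod (MonoidHom.id _)))
    have hζ : ∀ C, ζ C = g'⁻¹ * kr (A * C * A⁻¹, C) * g' := by
      intro C
      change g'⁻¹ * kr (A * C * A⁻¹, C) * g'⁻¹⁻¹ = _
      rw [inv_inv]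
    have h0 : ∀ i j (hij : i ≠ j), Lv S0 (ζ (D3 F i j hij)) := by
      intro i j hij
      set C := D3 F i j hij with hC
      have hCdet : (C : Matrix (Fin 3) (Fin 3) F).det = 1 := det_D3 hij
      have hM1 : kr (A * C * A⁻¹, C) ∈ M := by
        apply c.sl _ _ _ hCdet
        rw [Units.val_mul, Units.val_mul, det_mul, det_mul, hCdet, mul_one, ← det_mul,
          ← Units.val_mul, mul_inv_cancel, Units.val_one, det_one]
      have hM2 : ζ C ∈ M := by
        rw [hζ]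
        exact M.mul_mem (M.mul_mem (M.inv_mem hg'M) hM1) hg'M
      have hcomm : kr (A * C * A⁻¹, C) * (kr (A, A⁻¹) * sw) = (kr (A, A⁻¹) * sw) *
          kr (A * C * A⁻¹, C) := by
        rw [mul_assoc (kr (A, A⁻¹)), sw_mul_kr, ← mul_assoc, ← mul_assoc, ← map_mul, ← map_mul]
        congr 2
        simp only [Prod.mk_mul_mk]
        congr 1
        · group
        · group
      have hcs : ζ C * s = s * ζ C := by
        have e1 : s = g'⁻¹ * (kr (A, A⁻¹) * sw) * g' := by rw [← hx1]; group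
        rw [hζ, e1]
        calc g'⁻¹ * kr (A * C * A⁻¹, C) * g' * (g'⁻¹ * (kr (A, A⁻¹) * sw) * g')
            = g'⁻¹ * (kr (A * C * A⁻¹, C) * (kr (A, A⁻¹) * sw)) * g' := by group
          _ = g'⁻¹ * ((kr (A, A⁻¹) * sw) * kr (A * C * A⁻¹, C)) * g' := by rw [hcomm]
          _ = _ := by group
      obtain ⟨⟨X, Y⟩, hXY⟩ := c.mem_range_of_conj (w := Pi.single 0 1) (ψ := Pi.single 2 1)
        (w' := Pi.single 0 1) (ψ' := Pi.single 2 1) (h := hD2) (h' := hD2) (by simp) (by simp)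
        (by simp) hM2 (by rw [← hs, hcs, mul_inv_cancel_right])
      refine ⟨X, Y, ?_, hXY.symm⟩
      rw [← hXY, hs', ← map_mul, ← map_mul, Prod.mk_mul_mk, Prod.mk_mul_mk, mul_one, one_mul] at hcs
      have h3 := kr_right_injective hcs
      have h4 := congrArg (fun x : GL (Fin 3) F => (x : Matrix (Fin 3) (Fin 3) F)) h3
      simp only [Units.val_mul, coe_D3, mul_add, add_mul, mul_one, one_mul] at h4
      have h5 := add_left_cancel h4
      refine ⟨?_, ?_, ?_⟩
      · have := congrFun (congrFun h5 1) 2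
        simpa [Matrix.mul_apply, Fin.sum_univ_three, Matrix.single_apply] using this
      · have := congrFun (congrFun h5 2) 2
        simpa [Matrix.mul_apply, Fin.sum_univ_three, Matrix.single_apply] using this
      · have := congrFun (congrFun h5 0) 1
        simpa [Matrix.mul_apply, Fin.sum_univ_three, Matrix.single_apply] using this.symm
    obtain ⟨X, hX⟩ := level ζ h0 0 2 (by decide)
    have h3 := finrank_fixS_kr_one X
    rw [← hX] at h3
    have h4 : Module.finrank F (fixS (ζ (D3 F 0 2 (by decide)))) = 5 := by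
      rw [hζ]
      have e1 : g'⁻¹ * kr (A * D3 F 0 2 (by decide) * A⁻¹, D3 F 0 2 (by decide)) * g' =
          (g'⁻¹ * kr (A, (1 : GL (Fin 3) F))) *
            kr (D3 F 0 2 (by decide), D3 F 0 2 (by decide)) *
            (g'⁻¹ * kr (A, (1 : GL (Fin 3) F)))⁻¹ := by
        rw [_root_.mul_inv_rev g'⁻¹, inv_inv, ← map_inv]
        have e2 : kr (A * D3 F 0 2 (by decide) * A⁻¹, D3 F 0 2 (by decide)) =
            kr (A, (1 : GL (Fin 3) F)) * kr (D3 F 0 2 (by decide), D3 F 0 2 (by decide)) *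
              kr (A, (1 : GL (Fin 3) F))⁻¹ := by
          rw [← map_mul, ← map_mul]
          congr 1
          simp
        rw [e2]
        simp only [mul_assoc]
      rw [e1, finrank_fixS_conj, finrank_fixS_DD]
    omega

end Cfsg.Agent.H886.TW
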