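import Cfsg.Agent.H886.TW.EvenClo
import Cfsg.Agent.H205.EvenTI

/-!
# Overgroups of `(SL_3 ⊗ SL_3).2` in characteristic two: conclusion (helper886)

The global step is `H205.EvenTI.main` of helper205.
-/

set_option autoImplicit false
set_option linter.unusedSectionVars false

namespace Cfsg.Agent.H886.TW

universe v

open Matrix Cfsg.Agent.H873 Cfsg.Agent.H872 Cfsg.Agent.H205.EvenTI
open scoped Kronecker

variable {F : Type*} [Field F]

/-- `SL_3`. -/
abbrev SL3 (F : Type*) [Field F] := Matrix.SpecialLinearGroup (Fin 3) F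

/-- The inclusion in `GL_3`. -/
abbrev tg : SL3 F →* GL (Fin 3) F := Matrix.SpecialLinearGroup.toGL

theorem det_tg (A : SL3 F) : ((tg A : GL (Fin 3) F) : Matrix (Fin 3) (Fin 3) F).det = 1 := A.2

theorem tg_injective : Function.Injective (tg : SL3 F → GL (Fin 3) F) :=
  Matrix.SpecialLinearGroup.toGL_injective

/-- Lifting to `SL_3`. -/
def ofGL (A : GL (Fin 3) F) (h : (A : Matrix (Fin 3) (Fin 3) F).det = 1) : SL3 F := ⟨A, h⟩

theorem tg_ofGL (A : GL (Fin 3) F) (h : (A : Matrix (Fin 3) (Fin 3) F).det = 1) :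
    tg (ofGL A h) = A := Units.ext rfl

theorem det_conj (P A : GL (Fin 3) F) (hA : (A : Matrix (Fin 3) (Fin 3) F).det = 1) :
    ((P * A * P⁻¹ : GL (Fin 3) F) : Matrix (Fin 3) (Fin 3) F).det = 1 := by
  rw [Units.val_mul, Units.val_mul, det_mul, det_mul, hA, mul_one, ← det_mul,
    ← Units.val_mul, mul_inv_cancel, Units.val_one, det_one]

/-- Conjugation by an element of `GL_3`. -/
def conjSL (P : GL (Fin 3) F) : SL3 F ≃* SL3 F where
  toFun A := ofGL (P * tg A * P⁻¹) (det_conj P _ (det_tg A))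
  invFun A := ofGL (P⁻¹ * tg A * P⁻¹⁻¹) (det_conj P⁻¹ _ (det_tg A))
  left_inv A := by
    apply tg_injective
    rw [tg_ofGL, tg_ofGL]
    group
  right_inv A := by
    apply tg_injective
    rw [tg_ofGL, tg_ofGL]
    group
  map_mul' A B := by
    apply tg_injective
    rw [tg_ofGL, map_mul, map_mul, tg_ofGL, tg_ofGL]
    group

theorem tg_conjSL (P : GL (Fin 3) F) (A : SL3 F) : tg (conjSL P A) = P * tg A * P⁻¹ := tg_ofGL _ _

variable {M : Subgroup (GL (Fin 3 × Fin 3) F)}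

/-- The homomorphism from `SL_3 × SL_3`. -/
def phi (c : Ctx M) : (Bool → SL3 F) →* M where
  toFun f := ⟨kr (tg (f true), tg (f false)), c.sl _ _ (det_tg _) (det_tg _)⟩
  map_one' := by
    apply Subtype.ext
    simp only [Pi.one_apply, map_one, Subgroup.coe_one]
    exact map_one kr
  map_mul' f f' := by
    apply Subtype.ext
    change kr (tg (f true * f' true), tg (f false * f' false)) =
      kr (tg (f true), tg (f false)) * kr (tg (f' true), tg (f' false))
    rw [map_mul tg, map_mul tg]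
    exact map_mul kr (tg (f true), tg (f false)) (tg (f' true), tg (f' false))

theorem coe_phi (c : Ctx M) (f : Bool → SL3 F) :
    (phi c f : GL (Fin 3 × Fin 3) F) = kr (tg (f true), tg (f false)) := rfl

/-- The transvections of `SL_3`. -/
def Dl (F : Type*) [Field F] : Set (SL3 F) :=
  {d | ∃ (w ψ : Fin 3 → F) (h : ψ ⬝ᵥ w = 0), w ≠ 0 ∧ ψ ≠ 0 ∧ tg d = tv w ψ h}

/-- A transvection as an element of `SL_3`. -/
def tvs (w ψ : Fin 3 → F) (h : ψ ⬝ᵥ w = 0) : SL3 F :=
  ofGL (tv w ψ h) (by rw [coe_tv]; exact det_tv _ _ h)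

theorem tg_tvs (w ψ : Fin 3 → F) (h : ψ ⬝ᵥ w = 0) : tg (tvs w ψ h) = tv w ψ h := tg_ofGL _ _

theorem tvs_mem {w ψ : Fin 3 → F} (h : ψ ⬝ᵥ w = 0) (hw : w ≠ 0) (hψ : ψ ≠ 0) :
    tvs w ψ h ∈ Dl F := ⟨w, ψ, h, hw, hψ, tg_tvs w ψ h⟩

theorem tv_mul_tv {ι : Type} [Fintype ι] [DecidableEq ι] (w ψ ψ' : ι → F) (h : ψ ⬝ᵥ w = 0)
    (h' : ψ' ⬝ᵥ w = 0) :
    tv w ψ h * tv w ψ' h' = tv w (ψ + ψ') (by rw [add_dotProduct, h, h', add_zero]) := by
  apply Units.ext
  rw [Units.val_mul, coe_tv, coe_tv, coe_tv, add_mul, one_mul, mul_add, mul_one,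
    vecMulVec_mul_vecMulVec, h, zero_smul, vecMulVec_zero, add_zero, vecMulVec_add]
  abel

theorem tv_sq (h2 : (2 : F) = 0) {ι : Type} [Fintype ι] [DecidableEq ι] (w ψ : ι → F)
    (h : ψ ⬝ᵥ w = 0) : tv w ψ h * tv w ψ h = 1 := by
  rw [tv_mul_tv]
  apply Units.ext
  rw [coe_tv, ← two_smul F ψ, h2, zero_smul, vecMulVec_zero, add_zero, Units.val_one]

theorem tv_ne_one {ι : Type} [Fintype ι] [DecidableEq ι] {w ψ : ι → F}
    (h : ψ ⬝ᵥ w = 0) (hw : w ≠ 0) (hψ : ψ ≠ 0) : tv w ψ h ≠ 1 := by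
  intro h1
  have h2 : (tv w ψ h : Matrix ι ι F) = 1 := by rw [h1, Units.val_one]
  rw [coe_tv, add_eq_left] at h2
  obtain ⟨i, hi⟩ := Function.ne_iff.1 hw
  obtain ⟨j, hj⟩ := Function.ne_iff.1 hψ
  have h3 := congrFun (congrFun h2 i) j
  rw [vecMulVec_apply, Matrix.zero_apply] at h3
  exact (mul_ne_zero hi hj) h3

theorem exists_tvs_of_sq (h2 : (2 : F) = 0) {s : SL3 F} (hs : s * s = 1) (hs1 : s ≠ 1) :
    ∃ (w ψ : Fin 3 → F) (h : ψ ⬝ᵥ w = 0), w ≠ 0 ∧ ψ ≠ 0 ∧ tg s = tv w ψ h := by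
  refine exists_tv_of_sq h2 ?_ ?_
  · rw [← map_mul, hs, map_one]
  · intro h
    exact hs1 (tg_injective (by rw [h, map_one]))

/-- Two Kronecker products of involutions. -/
theorem kr_inj_of_sq (h2 : (2 : F) = 0) {A B A' B' : GL (Fin 3) F} (hA : A * A = 1)
    (hA' : A' * A' = 1) (h : kr (A, B) = kr (A', B')) : A = A' ∧ B = B' := by
  have h1 : kr (A'⁻¹ * A, B'⁻¹ * B) = 1 := by
    have : (A'⁻¹ * A, B'⁻¹ * B) = (A', B')⁻¹ * (A, B) := rfl
    rw [this, map_mul, map_inv, h, inv_mul_cancel]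
  obtain ⟨b, hb1, hb2⟩ := kr_eq_one h1
  have e1 : A = b • A' := by
    calc A = A' * (A'⁻¹ * A) := by group
      _ = _ := by rw [hb1, mul_smul_gl, mul_one]
  have e2 : B = b⁻¹ • B' := by
    calc B = B' * (B'⁻¹ * B) := by group
      _ = _ := by rw [hb2, mul_smul_gl, mul_one]
  have h3 : (b * b) • (1 : GL (Fin 3) F) = (1 : Fˣ) • (1 : GL (Fin 3) F) := by
    have h4 : (b * b) • (1 : GL (Fin 3) F) = A * A := by
      rw [e1, smul_mul_gl, mul_smul_gl, hA', smul_smul]
    rw [h4, hA, one_smul]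
  have h4 := smul_one_inj h3
  have h5 : b = 1 := by
    have h6 : (b : F) * (b : F) = 1 := by rw [← Units.val_mul, h4, Units.val_one]
    have h7 : ((b : F) - 1) * ((b : F) - 1) = 0 := by
      linear_combination h6 + (1 - (b : F)) * h2
    exact Units.ext (sub_eq_zero.1 (mul_self_eq_zero.1 h7))
  rw [h5, one_smul] at e1
  rw [h5, inv_one, one_smul] at e2
  exact ⟨e1, e2⟩

/-- Conjugation by a Kronecker product. -/
theorem acts_kr (c : Ctx M) {h : M} {P Q : GL (Fin 3) F} (hh : (h : GL (Fin 3 × Fin 3) F) = kr (P, Q)) :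
    Acts (phi c) h 1 (fun b => if b then conjSL P else conjSL Q) := by
  intro f
  apply Subtype.ext
  rw [coe_phi, Subgroup.coe_mul, Subgroup.coe_mul, Subgroup.coe_inv, hh, coe_phi]
  simp only [if_true, Bool.false_eq_true, if_false]
  rw [tg_conjSL, tg_conjSL, ← map_inv, ← map_mul, ← map_mul]
  rfl

/-- Conjugation by a Kronecker product times the swap. -/
theorem acts_sw (c : Ctx M) {h : M} {P Q : GL (Fin 3) F}
    (hh : (h : GL (Fin 3 × Fin 3) F) * sw = kr (P, Q)) :
    Acts (phi c) h Equiv.boolNot (fun b => if b then conjSL P else conjSL Q) := by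
  intro f
  have hh' : (h : GL (Fin 3 × Fin 3) F) = kr (P, Q) * sw := by
    rw [← hh, mul_assoc, sw_mul_self, mul_one]
  apply Subtype.ext
  rw [coe_phi, Subgroup.coe_mul, Subgroup.coe_mul, Subgroup.coe_inv, hh', coe_phi,
    _root_.mul_inv_rev, sw_inv]
  simp only [if_true, Bool.false_eq_true, if_false]
  rw [tg_conjSL, tg_conjSL]
  have e : Equiv.boolNot.symm true = false := rfl
  have e' : Equiv.boolNot.symm false = true := rfl
  rw [e, e']
  calc kr (P, Q) * sw * kr (tg (f true), tg (f false)) * (sw * (kr (P, Q))⁻¹)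
      = kr (P, Q) * (sw * kr (tg (f true), tg (f false)) * sw) * (kr (P, Q))⁻¹ := by
        simp only [mul_assoc]
    _ = _ := by
        rw [sw_kr_sw, ← map_inv, ← map_mul, ← map_mul]
        rfl

theorem phi_single_true (c : Ctx M) (s : SL3 F) :
    (phi c (Pi.mulSingle true s) : GL (Fin 3 × Fin 3) F) = kr (tg s, (1 : GL (Fin 3) F)) := by
  rw [coe_phi, Pi.mulSingle_eq_same, Pi.mulSingle_eq_of_ne (by decide), map_one]

theorem phi_single_false (c : Ctx M) (s : SL3 F) :
    (phi c (Pi.mulSingle false s) : GL (Fin 3 × Fin 3) F) = kr ((1 : GL (Fin 3) F), tg s) := by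
  rw [coe_phi, Pi.mulSingle_eq_same, Pi.mulSingle_eq_of_ne (by decide), map_one]

theorem phi_isRoot (c : Ctx M) (i : Bool) {s : SL3 F} (hs : s ∈ Dl F) :
    IsRoot (phi c (Pi.mulSingle i s) : GL (Fin 3 × Fin 3) F) := by
  obtain ⟨w, ψ, h, hw, hψ, e⟩ := hs
  refine ⟨w, ψ, h, hw, hψ, ?_⟩
  cases i
  · left
    rw [phi_single_false, e]
    rfl
  · right
    rw [phi_single_true, e]
    rfl

theorem exists_sq_root [Finite F] (h2 : (2 : F) = 0) (a : Fˣ) : ∃ b : Fˣ, b * b = a := by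
  have hring : ringChar F = 2 := by
    have h3 : ringChar F ∣ 2 := ringChar.dvd (by exact_mod_cast h2)
    rcases (Nat.dvd_prime Nat.prime_two).1 h3 with h4 | h4
    · exact absurd h4 CharP.ringChar_ne_one
    · exact h4
  obtain ⟨b, hb⟩ := FiniteField.isSquare_of_char_two hring (a : F)
  have hb0 : b ≠ 0 := by
    rintro rfl
    exact a.ne_zero (by rw [hb, zero_mul])
  exact ⟨Units.mk0 b hb0, Units.ext hb.symm⟩

/-- A matrix with scalar square commutes with a transvection. -/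
theorem exists_comm_tvs [Finite F] (h2 : (2 : F) = 0) {P : GL (Fin 3) F} {b : Fˣ}
    (h : P * P = b • (1 : GL (Fin 3) F)) : ∃ d ∈ Dl F, P * tg d = tg d * P := by
  obtain ⟨d, rfl⟩ := exists_sq_root h2 b
  have h3 : (d⁻¹ • P) * (d⁻¹ • P) = 1 := by
    rw [smul_mul_gl, mul_smul_gl, h, smul_smul, smul_smul,
      ← _root_.mul_inv_rev, inv_mul_cancel, one_smul]
  have hP : P = d • (d⁻¹ • P) := by rw [smul_smul, mul_inv_cancel, one_smul]
  by_cases h1 : d⁻¹ • P = 1
  · have h0 : (Pi.single 2 1 : Fin 3 → F) ⬝ᵥ Pi.single 0 1 = 0 := by simp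
    refine ⟨tvs (Pi.single 0 1) (Pi.single 2 1) h0, tvs_mem h0 (by simp) (by simp), ?_⟩
    rw [hP, h1, smul_mul_gl, mul_smul_gl, one_mul, mul_one]
  · obtain ⟨w, ψ, h0, hw, hψ, e⟩ := exists_tv_of_sq h2 h3 h1
    refine ⟨tvs w ψ h0, tvs_mem h0 hw hψ, ?_⟩
    rw [tg_tvs, hP, e, smul_mul_gl, mul_smul_gl]

theorem evenData [Finite F] (h2 : (2 : F) = 0) (c : Ctx M) :
    Data ((twr : Subgroup (GL (Fin 3 × Fin 3) F)).subgroupOf M) (phi c) (Dl F) where
  mem f := by
    rw [Subgroup.mem_subgroupOf, coe_phi]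
    exact kr_mem_twr _
  inj f f' hf hf' h := by
    have h1 := congrArg (fun x : M => (x : GL (Fin 3 × Fin 3) F)) h
    simp only [coe_phi] at h1
    have h3 : tg (f true) * tg (f true) = 1 := by
      rw [← map_mul, ← Pi.mul_apply, hf]; simp
    have h4 : tg (f' true) * tg (f' true) = 1 := by
      rw [← map_mul, ← Pi.mul_apply, hf']; simp
    obtain ⟨h5, h6⟩ := kr_inj_of_sq h2 h3 h4 h1
    funext i
    cases i
    · exact tg_injective h6
    · exact tg_injective h5
  lift f hf := by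
    have h1 := congrArg (fun x : M => (x : GL (Fin 3 × Fin 3) F)) hf
    simp only [Subgroup.coe_mul, coe_phi, Subgroup.coe_one] at h1
    rw [← map_mul, Prod.mk_mul_mk] at h1
    obtain ⟨b, hb1, hb2⟩ := kr_eq_one h1
    have hdet := congrArg (fun x : GL (Fin 3) F => (x : Matrix (Fin 3) (Fin 3) F).det) hb1
    simp only [Units.val_mul, det_mul, det_tg, coe_smul_gl, Units.val_one, det_smul, det_one,
      mul_one, Fintype.card_fin] at hdet
    have hb3 : b * b * b = 1 := by
      apply Units.ext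
      rw [Units.val_mul, Units.val_mul, Units.val_one, hdet]
      ring
    have hb4 : b * b * (b * b) = b := by
      calc b * b * (b * b) = (b * b * b) * b := by group
        _ = b := by rw [hb3, one_mul]
    have hbi : (b * b)⁻¹ = b := inv_eq_of_mul_eq_one_right hb3
    -- `A' = b • A`, `B' = b⁻¹ • B`
    have hdA : ((b • tg (f true) : GL (Fin 3) F) : Matrix (Fin 3) (Fin 3) F).det = 1 := by
      rw [coe_smul_gl, det_smul, det_tg, mul_one, Fintype.card_fin, ← Units.val_pow_eq_pow_val,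
        pow_succ, pow_two, hb3, Units.val_one]
    have hdB : ((b⁻¹ • tg (f false) : GL (Fin 3) F) : Matrix (Fin 3) (Fin 3) F).det = 1 := by
      rw [coe_smul_gl, det_smul, det_tg, mul_one, Fintype.card_fin, ← Units.val_pow_eq_pow_val,
        inv_pow, pow_succ, pow_two, hb3, inv_one, Units.val_one]
    refine ⟨fun i => if i then ofGL _ hdA else ofGL _ hdB, ?_, ?_⟩
    · funext i
      apply tg_injective
      rw [Pi.mul_apply, map_mul, Pi.one_apply, map_one]
      cases i
      · simp only [Bool.false_eq_true, if_false, tg_ofGL]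
        rw [smul_mul_gl, mul_smul_gl, hb2, smul_smul, smul_smul]
        have : b⁻¹ * b⁻¹ * b⁻¹ = 1 := by
          rw [← _root_.mul_inv_rev, ← _root_.mul_inv_rev, ← mul_assoc, hb3, inv_one]
        rw [this, one_smul]
      · simp only [if_true, tg_ofGL]
        rw [smul_mul_gl, mul_smul_gl, hb1, smul_smul, smul_smul]
        rw [hb3, one_smul]
    · apply Subtype.ext
      rw [coe_phi, coe_phi]
      simp only [Bool.false_eq_true, if_false, if_true, tg_ofGL]
      have h5 := kr_smul_smul b⁻¹ (tg (f true)) (tg (f false))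
      rwa [inv_inv] at h5
  perm h hh := by
    rw [Subgroup.mem_subgroupOf, mem_twr] at hh
    rcases hh with ⟨⟨P, Q⟩, hPQ⟩ | ⟨⟨P, Q⟩, hPQ⟩
    · exact ⟨_, _, acts_kr c hPQ.symm⟩
    · exact ⟨_, _, acts_sw c hPQ.symm⟩
  inv d hd := by
    obtain ⟨w, ψ, h, hw, hψ, e⟩ := hd
    refine ⟨tg_injective ?_, fun h1 => tv_ne_one h hw hψ ?_⟩
    · rw [map_mul, map_one, e, tv_sq h2]
    · rw [← e, h1, map_one]
  four s hs hs1 := by
    obtain ⟨w, ψ, h, hw, hψ, e⟩ := exists_tvs_of_sq h2 hs hs1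
    obtain ⟨ψ', h', hne⟩ := exists_kill_not_mem (F := F) (β := Fin 3) (by simp) w ψ
    have hψ' : ψ' ≠ 0 := fun h0 => hne ⟨0, by rw [h0, zero_smul]⟩
    have hsum : ψ + ψ' ≠ 0 := fun h0 => hne ⟨-1, by rw [neg_one_smul]; exact (neg_eq_of_add_eq_zero_right h0).symm⟩
    have h'' : (ψ + ψ') ⬝ᵥ w = 0 := by rw [add_dotProduct, h, h', add_zero]
    have e1 : s = tvs w ψ h := tg_injective (by rw [tg_tvs, e])
    have e2 : tvs w ψ h * tvs w ψ' h' = tvs w (ψ + ψ') h'' := by
      apply tg_injective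
      rw [map_mul, tg_tvs, tg_tvs, tg_tvs, tv_mul_tv]
    have e3 : tvs w ψ' h' * tvs w ψ h = tvs w (ψ + ψ') h'' := by
      apply tg_injective
      rw [map_mul, tg_tvs, tg_tvs, tg_tvs, tv_mul_tv]
      congr 1
      exact add_comm _ _
    have hc : Commute (tvs w ψ h) (tvs w ψ' h') := by
      change _ * _ = _ * _
      rw [e2, e3]
    refine ⟨tvs w ψ h, tvs_mem h hw hψ, tvs w ψ' h', tvs_mem h' hw hψ', ?_, hc, ?_, ?_⟩
    · rw [e2]
      exact tvs_mem h'' hw hsum
    · rw [e1]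
      exact Commute.refl _
    · rw [e1]
      exact hc.symm
  sq := by
    have h0 : (Pi.single 2 1 : Fin 3 → F) ⬝ᵥ Pi.single 0 1 = 0 := by simp
    refine ⟨tvs (Pi.single 0 1) (Pi.single 2 1) h0, tvs_mem h0 (by simp) (by simp),
      ofGL (D3 F 0 1 (by decide)) (det_D3 _) * ofGL (D3 F 1 2 (by decide)) (det_D3 _), ?_⟩
    apply tg_injective
    rw [map_mul, map_mul, tg_ofGL, tg_ofGL, tg_tvs]
    apply Units.ext
    have e : (tv (Pi.single 0 1) (Pi.single 2 1) h0 : Matrix (Fin 3) (Fin 3) F) =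
        1 + Matrix.single 0 2 1 := coe_D3 0 2 (by decide)
    rw [Units.val_mul, Units.val_mul, coe_D3, coe_D3, e]
    ext i j
    fin_cases i <;> fin_cases j <;>
      simp [Matrix.mul_apply, Fin.sum_univ_three, Matrix.single_apply, Matrix.one_apply] <;>
      linear_combination h2
  cent i s hs hs1 g hg := by
    have hr := phi_isRoot c i (exists_tvs_of_sq h2 hs hs1)
    rw [Subgroup.mem_subgroupOf]
    refine (clo_even h2 c).mem_twr c hr g.2 ?_
    have h1 : g * phi c (Pi.mulSingle i s) * g⁻¹ = phi c (Pi.mulSingle i s) := by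
      rw [hg.eq, mul_inv_cancel_right]
    have h3 := congrArg (fun x : M => (x : GL (Fin 3 × Fin 3) F)) h1
    simp only [Subgroup.coe_mul, Subgroup.coe_inv] at h3
    rw [h3, coe_phi]
    exact kr_mem_twr _
  ti i d hd g hg := by
    have hr := phi_isRoot c i hd
    rw [Subgroup.mem_subgroupOf] at hg ⊢
    refine (clo_even h2 c).mem_twr c hr g.2 ?_
    simpa only [Subgroup.coe_mul, Subgroup.coe_inv] using hg
  fix y hy hyy π θ hA i hi := by
    rw [Subgroup.mem_subgroupOf, mem_twr] at hy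
    rcases hy with ⟨⟨P, Q⟩, hPQ⟩ | ⟨⟨P, Q⟩, hPQ⟩
    · have h1 := congrArg (fun x : M => (x : GL (Fin 3 × Fin 3) F)) hyy
      simp only [Subgroup.coe_mul, Subgroup.coe_one] at h1
      rw [← hPQ, ← map_mul, Prod.mk_mul_mk] at h1
      obtain ⟨b, hb1, hb2⟩ := kr_eq_one h1
      cases i
      · obtain ⟨d, hd, hc⟩ := exists_comm_tvs h2 hb2
        refine ⟨d, hd, ?_⟩
        change _ * _ = _ * _
        apply Subtype.ext
        rw [Subgroup.coe_mul, Subgroup.coe_mul, phi_single_false, ← hPQ, ← map_mul, ← map_mul,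
          Prod.mk_mul_mk, Prod.mk_mul_mk, hc, one_mul, mul_one]
      · obtain ⟨d, hd, hc⟩ := exists_comm_tvs h2 hb1
        refine ⟨d, hd, ?_⟩
        change _ * _ = _ * _
        apply Subtype.ext
        rw [Subgroup.coe_mul, Subgroup.coe_mul, phi_single_true, ← hPQ, ← map_mul, ← map_mul,
          Prod.mk_mul_mk, Prod.mk_mul_mk, hc, one_mul, mul_one]
    · exfalso
      have h0 : (Pi.single 2 1 : Fin 3 → F) ⬝ᵥ Pi.single 0 1 = 0 := by simp
      set d := tvs (Pi.single 0 1) (Pi.single 2 1) h0 with hd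
      have hdd : d * d = 1 := tg_injective (by rw [map_mul, hd, tg_tvs, tv_sq h2, map_one])
      have hd1 : d ≠ 1 := fun h => tv_ne_one h0 (by simp) (by simp) (by rw [← tg_tvs, ← hd, h, map_one])
      have h1 := hA.single i d
      have h3 := (acts_sw c hPQ.symm).single i d
      rw [h1] at h3
      have hsq : ∀ e : SL3 F ≃* SL3 F, e d * e d = 1 := fun e => by rw [← map_mul, hdd, map_one]
      have hinj : ∀ a b : Bool → SL3 F, a * a = 1 → b * b = 1 → phi c a = phi c b → a = b := by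
        intro a b ha hb hab
        have h1 := congrArg (fun x : M => (x : GL (Fin 3 × Fin 3) F)) hab
        simp only [coe_phi] at h1
        have h3 : tg (a true) * tg (a true) = 1 := by
          rw [← map_mul, ← Pi.mul_apply, ha]; simp
        have h4 : tg (b true) * tg (b true) = 1 := by
          rw [← map_mul, ← Pi.mul_apply, hb]; simp
        obtain ⟨h5, h6⟩ := kr_inj_of_sq h2 h3 h4 h1
        funext i
        cases i
        · exact tg_injective h6
        · exact tg_injective h5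
      have h4 := hinj _ _ (single_sq (hsq _)) (single_sq (hsq _)) h3
      have h5 := single_inj (fun h => hd1 (by simpa using h)) h4
      rw [hi] at h5
      cases i
      · exact absurd h5.1 (by decide)
      · exact absurd h5.1 (by decide)

/-- **Even characteristic, `SL_3 ⊗ SL_3`.** -/
theorem le_twr_of_even {F : Type v} [Field F] {M : Subgroup (GL (Fin 3 × Fin 3) F)}
    (hZ : ZStar.{v}) (hS : StrClosed.{v}) (hE : SEConj.{v}) [Finite F] (h2 : (2 : F) = 0)
    (c : Ctx M) :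
    M ≤ (twr : Subgroup (GL (Fin 3 × Fin 3) F)) := by
  have h := main (evenData h2 c) hZ hS hE (i := true) (j := false) (by decide)
  rwa [Subgroup.subgroupOf_eq_top] at h

end Cfsg.Agent.H886.TW
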