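import Cfsg.Agent.H872.TensorMax

/-!
# The swap of the two factors of `Fᵅ ⊗ Fᵅ` (helper886)

`tw` is the group generated by the Kronecker products and the swap.
-/

set_option autoImplicit false
set_option linter.unusedSectionVars false

namespace Cfsg.Agent.H886.TW

open Matrix Cfsg.Agent.H873 Cfsg.Agent.H872
open scoped Kronecker

variable {α : Type} [Fintype α] [DecidableEq α] {F : Type*} [Field F]

/-- The matrix of the swap. -/
def swM (α F : Type*) [Fintype α] [DecidableEq α] [Field F] : Matrix (α × α) (α × α) F :=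
  Matrix.of fun p q => if q = p.swap then 1 else 0

theorem swM_mulVec (v : α × α → F) : swM α F *ᵥ v = fun p => v p.swap := by
  funext p
  simp [swM, mulVec, dotProduct]

theorem swM_mul_self : swM α F * swM α F = 1 := by
  apply Matrix.mulVec_injective
  funext v
  rw [← mulVec_mulVec, swM_mulVec, swM_mulVec, one_mulVec]
  funext p
  simp

/-- The swap of the two factors. -/
def sw : GL (α × α) F := ⟨swM α F, swM α F, swM_mul_self, swM_mul_self⟩

theorem coe_sw : ((sw : GL (α × α) F) : Matrix (α × α) (α × α) F) = swM α F := rfl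

theorem sw_mulVec (v : α × α → F) :
    ((sw : GL (α × α) F) : Matrix (α × α) (α × α) F) *ᵥ v = fun p => v p.swap := swM_mulVec v

theorem sw_ten (u w : α → F) :
    ((sw : GL (α × α) F) : Matrix (α × α) (α × α) F) *ᵥ ten u w = ten w u := by
  rw [sw_mulVec]
  funext p
  simp [ten_apply, mul_comm]

theorem sw_mul_self : (sw : GL (α × α) F) * sw = 1 := Units.ext swM_mul_self

theorem sw_inv : (sw : GL (α × α) F)⁻¹ = sw := inv_eq_of_mul_eq_one_left sw_mul_self

theorem sw_mul_kr (A B : GL α F) : sw * kr (A, B) = kr (B, A) * sw := by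
  apply gl_ext_ten
  intro u w
  rw [Units.val_mul, Units.val_mul, ← mulVec_mulVec, ← mulVec_mulVec, kr_mulVec_ten, sw_ten,
    sw_ten, kr_mulVec_ten]

theorem sw_kr_sw (A B : GL α F) : sw * kr (A, B) * sw = kr (B, A) := by
  rw [sw_mul_kr, mul_assoc, sw_mul_self, mul_one]

theorem sw_mem_conj {k : GL (α × α) F} (hk : k ∈ (kr (α := α) (β := α) (F := F)).range) :
    sw * k * sw ∈ (kr (α := α) (β := α) (F := F)).range := by
  obtain ⟨⟨A, B⟩, rfl⟩ := hk
  exact ⟨(B, A), (sw_kr_sw A B).symm⟩

theorem sw_notMem (h : 2 ≤ Fintype.card α) :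
    (sw : GL (α × α) F) ∉ (kr (α := α) (β := α) (F := F)).range := by
  rintro ⟨⟨A, B⟩, h1⟩
  obtain ⟨i, j, hij⟩ := Fintype.exists_pair_of_one_lt_card (by omega : 1 < Fintype.card α)
  have h2 := congrArg (fun g : GL (α × α) F => (g : Matrix (α × α) (α × α) F)) h1
  have e : ∀ a b c d : α, (A : Matrix α α F) a c * (B : Matrix α α F) b d =
      if (c, d) = (b, a) then 1 else 0 := by
    intro a b c d
    have := congrFun (congrFun h2 (a, b)) (c, d)
    rw [coe_kr] at this
    simpa [kroneckerMap_apply, coe_sw, swM] using this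
  have e1 := e i i i i
  have e2 := e j j j j
  have e3 := e i j i j
  simp only [if_pos] at e1 e2
  rw [if_neg (by simp [hij])] at e3
  rcases mul_eq_zero.1 e3 with h3 | h3
  · rw [h3, zero_mul] at e1
    exact zero_ne_one e1
  · rw [h3, mul_zero] at e2
    exact zero_ne_one e2


/-- The tensor wreath group `(GL ⊗ GL).2`. -/
def twr : Subgroup (GL (α × α) F) where
  carrier := {g | g ∈ (kr (α := α) (β := α) (F := F)).range ∨
    g * sw ∈ (kr (α := α) (β := α) (F := F)).range}
  one_mem' := Or.inl (Subgroup.one_mem _)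
  mul_mem' {g h} hg hh := by
    rcases hg with hg | hg <;> rcases hh with hh | hh
    · exact Or.inl (Subgroup.mul_mem _ hg hh)
    · right
      change g * h * sw ∈ _
      rw [mul_assoc]
      exact Subgroup.mul_mem _ hg hh
    · right
      change g * h * sw ∈ _
      have e : g * h * sw = (g * sw) * (sw * h * sw) := by
        have := sw_mul_self (α := α) (F := F)
        calc g * h * sw = g * (sw * sw) * h * sw := by rw [this, mul_one]
          _ = (g * sw) * (sw * h * sw) := by simp only [mul_assoc]
      rw [e]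
      exact Subgroup.mul_mem _ hg (sw_mem_conj hh)
    · left
      have e : g * h = (g * sw) * (sw * (h * sw) * sw) := by
        have := sw_mul_self (α := α) (F := F)
        calc g * h = g * (sw * sw) * h * (sw * sw) := by rw [this, mul_one, mul_one]
          _ = (g * sw) * (sw * (h * sw) * sw) := by simp only [mul_assoc]
      rw [e]
      exact Subgroup.mul_mem _ hg (sw_mem_conj hh)
  inv_mem' {g} hg := by
    rcases hg with hg | hg
    · exact Or.inl (Subgroup.inv_mem _ hg)
    · right
      have e : g⁻¹ * sw = sw * (g * sw)⁻¹ * sw := by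
        rw [_root_.mul_inv_rev, sw_inv, ← mul_assoc, sw_mul_self, one_mul]
      change g⁻¹ * sw ∈ _
      rw [e]
      exact sw_mem_conj (Subgroup.inv_mem _ hg)

theorem mem_twr {g : GL (α × α) F} : g ∈ (twr : Subgroup (GL (α × α) F)) ↔
    g ∈ (kr (α := α) (β := α) (F := F)).range ∨
      g * sw ∈ (kr (α := α) (β := α) (F := F)).range := Iff.rfl

theorem range_le_twr : (kr (α := α) (β := α) (F := F)).range ≤ twr := fun _ h => Or.inl h

theorem kr_mem_twr (x : GL α F × GL α F) : kr x ∈ (twr : Subgroup (GL (α × α) F)) :=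
  Or.inl ⟨x, rfl⟩

theorem sw_mem_twr : (sw : GL (α × α) F) ∈ (twr : Subgroup (GL (α × α) F)) := by
  right
  rw [sw_mul_self]
  exact Subgroup.one_mem _

end Cfsg.Agent.H886.TW
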