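import Cfsg.Agent.H886.TW.Root
import Cfsg.Agent.H189.TraceFix

/-!
# Overgroups of `(SL ⊗ SL).2` in odd characteristic (helper886)

The trace lemma of helper189 (`H189/TraceFix`) applied to the sum of the two partial traces.
-/

set_option autoImplicit false
set_option linter.unusedSectionVars false

namespace Cfsg.Agent.H886.TW

open Matrix Cfsg.Agent.H873 Cfsg.Agent.H872
open scoped Kronecker

variable {α : Type} [Fintype α] [DecidableEq α] {F : Type*} [Field F]

/-! ### Conjugation -/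

/-- Conjugation on matrices. -/
def rho {κ : Type} [Fintype κ] [DecidableEq κ] : GL κ F →* Module.End F (Matrix κ κ F) where
  toFun g :=
    { toFun := fun x => (g : Matrix κ κ F) * x * ((g⁻¹ : GL κ F) : Matrix κ κ F)
      map_add' := fun x y => by rw [mul_add, add_mul]
      map_smul' := fun c x => by rw [Matrix.mul_smul, Matrix.smul_mul, RingHom.id_apply] }
  map_one' := by
    ext1 x
    change ((1 : GL κ F) : Matrix κ κ F) * x * (((1 : GL κ F)⁻¹ : GL κ F) : Matrix κ κ F) = x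
    rw [inv_one, Units.val_one, one_mul, mul_one]
  map_mul' g h := by
    ext1 x
    change ((g * h : GL κ F) : Matrix κ κ F) * x * (((g * h)⁻¹ : GL κ F) : Matrix κ κ F) =
      (g : Matrix κ κ F) * ((h : Matrix κ κ F) * x * ((h⁻¹ : GL κ F) : Matrix κ κ F)) *
        ((g⁻¹ : GL κ F) : Matrix κ κ F)
    rw [_root_.mul_inv_rev, Units.val_mul, Units.val_mul]
    simp only [mul_assoc]

theorem rho_apply {κ : Type} [Fintype κ] [DecidableEq κ] (g : GL κ F) (x : Matrix κ κ F) :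
    rho g x = (g : Matrix κ κ F) * x * ((g⁻¹ : GL κ F) : Matrix κ κ F) := rfl

theorem rho_kr (A B : GL α F) (a b : Matrix α α F) :
    rho (kr (A, B)) (a ⊗ₖ b) = (rho A a) ⊗ₖ (rho B b) := by
  rw [rho_apply, ← map_inv, rho_apply, rho_apply, coe_kr, coe_kr, ← mul_kronecker_mul,
    ← mul_kronecker_mul]
  rfl

theorem rho_one_kr {κ : Type} [Fintype κ] [DecidableEq κ] (A : GL κ F) :
    rho A (1 : Matrix κ κ F) = 1 := by
  rw [rho_apply, mul_one, ← Units.val_mul, mul_inv_cancel, Units.val_one]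

theorem trace_rho {κ : Type} [Fintype κ] [DecidableEq κ] (A : GL κ F) (a : Matrix κ κ F) :
    trace (rho A a) = trace a := by
  rw [rho_apply, trace_mul_cycle, ← Units.val_mul, inv_mul_cancel, Units.val_one, one_mul]

theorem rho_sw (a b : Matrix α α F) : rho sw (a ⊗ₖ b) = b ⊗ₖ a := by
  rw [rho_apply, sw_inv]
  apply Matrix.mulVec_injective
  funext v
  rw [← mulVec_mulVec, ← mulVec_mulVec, sw_mulVec, sw_mulVec]
  funext p
  simp only [mulVec, dotProduct, kroneckerMap_apply, Prod.fst_swap, Prod.snd_swap]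
  rw [← Equiv.sum_comp (Equiv.prodComm α α)]
  refine Finset.sum_congr rfl fun x _ => ?_
  simp only [Equiv.prodComm_apply, Prod.fst_swap, Prod.snd_swap, Prod.swap_swap]
  ring

/-- Linear maps on matrices are determined by Kronecker products. -/
theorem ext_kron {X : Type*} [AddCommGroup X] [Module F X]
    {f g : Matrix (α × α) (α × α) F →ₗ[F] X} (h : ∀ a b : Matrix α α F, f (a ⊗ₖ b) = g (a ⊗ₖ b)) :
    f = g := by
  apply Matrix.ext_linearMap
  rintro ⟨i, j⟩ ⟨k, l⟩
  ext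
  have h1 : Matrix.single (i, j) (k, l) (1 : F) =
      (Matrix.single i k (1 : F)) ⊗ₖ (Matrix.single j l (1 : F)) := by
    ext ⟨a, b⟩ ⟨c, d⟩
    simp only [Matrix.single_apply, kroneckerMap_apply, Prod.mk.injEq]
    by_cases h1 : i = a <;> by_cases h2 : j = b <;> by_cases h3 : k = c <;> by_cases h4 : l = d <;>
      simp [h1, h2, h3, h4]
  simp only [LinearMap.comp_apply, Matrix.singleLinearMap_apply]
  rw [h1, h]

/-- The sum of the two partial traces. -/
def ptr : Module.End F (Matrix (α × α) (α × α) F) where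
  toFun x := (Matrix.of fun i k => ∑ j, x (i, j) (k, j)) ⊗ₖ (1 : Matrix α α F) +
    (1 : Matrix α α F) ⊗ₖ (Matrix.of fun j l => ∑ i, x (i, j) (i, l))
  map_add' x y := by
    ext ⟨a, b⟩ ⟨c, d⟩
    simp only [Matrix.add_apply, kroneckerMap_apply, Matrix.of_apply, Finset.sum_add_distrib]
    ring
  map_smul' t x := by
    ext ⟨a, b⟩ ⟨c, d⟩
    simp only [Matrix.add_apply, kroneckerMap_apply, Matrix.of_apply, Matrix.smul_apply,
      smul_eq_mul, ← Finset.mul_sum, RingHom.id_apply]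
    ring

theorem ptr_mem (x : Matrix (α × α) (α × α) F) :
    ∃ a b : Matrix α α F, ptr x = a ⊗ₖ (1 : Matrix α α F) + (1 : Matrix α α F) ⊗ₖ b :=
  ⟨_, _, rfl⟩

theorem ptr_kron (a b : Matrix α α F) :
    ptr (a ⊗ₖ b) = trace b • (a ⊗ₖ (1 : Matrix α α F)) +
      trace a • ((1 : Matrix α α F) ⊗ₖ b) := by
  change (Matrix.of fun i k => ∑ j, (a ⊗ₖ b) (i, j) (k, j)) ⊗ₖ (1 : Matrix α α F) +
    (1 : Matrix α α F) ⊗ₖ (Matrix.of fun j l => ∑ i, (a ⊗ₖ b) (i, j) (i, l)) = _
  ext ⟨i, j⟩ ⟨k, l⟩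
  simp only [Matrix.add_apply, kroneckerMap_apply, Matrix.of_apply, Matrix.smul_apply,
    smul_eq_mul, trace, diag_apply]
  rw [← Finset.mul_sum, ← Finset.sum_mul]
  ring

theorem rho_ptr_of_mem {k : GL (α × α) F} (hk : k ∈ (twr : Subgroup (GL (α × α) F)))
    (x : Matrix (α × α) (α × α) F) : rho k (ptr x) = ptr (rho k x) := by
  have h1 : ∀ (A B : GL α F) (x : Matrix (α × α) (α × α) F),
      rho (kr (A, B)) (ptr x) = ptr (rho (kr (A, B)) x) := by
    intro A B x
    have : (rho (kr (A, B)) : Module.End F (Matrix (α × α) (α × α) F)) ∘ₗ ptr =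
        ptr ∘ₗ rho (kr (A, B)) := by
      apply ext_kron
      intro a b
      simp only [LinearMap.comp_apply]
      rw [ptr_kron, map_add, map_smul, map_smul, rho_kr, rho_kr, rho_kr, ptr_kron, trace_rho,
        trace_rho, rho_one_kr, rho_one_kr]
    exact LinearMap.congr_fun this x
  have h2 : ∀ x : Matrix (α × α) (α × α) F, rho sw (ptr x) = ptr (rho sw x) := by
    intro x
    have : (rho sw : Module.End F (Matrix (α × α) (α × α) F)) ∘ₗ ptr = ptr ∘ₗ rho sw := by
      apply ext_kron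
      intro a b
      simp only [LinearMap.comp_apply]
      rw [ptr_kron, map_add, map_smul, map_smul, rho_sw, rho_sw, rho_sw, ptr_kron, add_comm]
    exact LinearMap.congr_fun this x
  rcases hk with ⟨⟨A, B⟩, rfl⟩ | ⟨⟨A, B⟩, hk⟩
  · exact h1 A B x
  · have e : k = kr (A, B) * sw := by
      rw [hk, mul_assoc, sw_mul_self, mul_one]
    rw [e, map_mul, Module.End.mul_apply, Module.End.mul_apply, h2, h1]

/-! ### Root groups and their traces -/

variable {M : Subgroup (GL (α × α) F)}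

theorem rt_smul_mul (w ψ : α → F) (h : ψ ⬝ᵥ w = 0) (s t : F) :
    (rt (s • w) ψ (by rw [dotProduct_smul, h, smul_zero]) : GL (α × α) F) *
      rt (t • w) ψ (by rw [dotProduct_smul, h, smul_zero]) =
      rt ((s + t) • w) ψ (by rw [dotProduct_smul, h, smul_zero]) := by
  apply gl_ext
  intro x
  rw [Units.val_mul, ← mulVec_mulVec, rt_mulVec, rt_mulVec, rt_mulVec, map_add, rc_ten,
    dotProduct_smul, h, smul_zero, zero_smul, add_zero, add_smul, ten_add_right]
  abel

/-- The root group as a homomorphism. -/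
def rtHom (c : Ctx M) (w ψ : α → F) (h : ψ ⬝ᵥ w = 0) : Multiplicative F →* M where
  toFun t := ⟨rt (t.toAdd • w) ψ (by rw [dotProduct_smul, h, smul_zero]), c.rt_mem _⟩
  map_one' := by
    apply Subtype.ext
    apply gl_ext
    intro x
    change (rt ((0 : F) • w) ψ _ : GL (α × α) F).1 *ᵥ x = ((1 : GL (α × α) F)).1 *ᵥ x
    rw [rt_mulVec, zero_smul, ten_zero_right, add_zero, Units.val_one, one_mulVec]
  map_mul' s t := by
    apply Subtype.ext
    exact (rt_smul_mul w ψ h s.toAdd t.toAdd).symm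

theorem coe_rtHom (c : Ctx M) (w ψ : α → F) (h : ψ ⬝ᵥ w = 0) (t : Multiplicative F) :
    ((rtHom c w ψ h t : M) : GL (α × α) F) =
      rt (t.toAdd • w) ψ (by rw [dotProduct_smul, h, smul_zero]) := rfl

theorem rtHom_injective (c : Ctx M) {w ψ : α → F} (h : ψ ⬝ᵥ w = 0) (hw : w ≠ 0) (hψ : ψ ≠ 0) :
    Function.Injective (rtHom c w ψ h) := by
  rw [injective_iff_map_eq_one]
  intro t ht
  obtain ⟨y, hy⟩ := exists_dot_one hψ
  have h1 := congrArg (fun g : M => ((g : GL (α × α) F) : Matrix (α × α) (α × α) F) *ᵥ ten w y) ht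
  simp only [coe_rtHom, rt_mulVec, rc_ten, hy, one_smul, OneMemClass.coe_one, Units.val_one,
    one_mulVec, add_eq_left] at h1
  have h2 : t.toAdd • w = 0 := by
    by_contra hne
    exact ten_ne_zero hw hne h1
  rcases smul_eq_zero.1 h2 with h3 | h3
  · exact h3
  · exact absurd h3 hw

/-- The trace over a root group. -/
theorem sum_rho [Fintype F] (hF : 2 < Fintype.card F) (w ψ : α → F) (h : ψ ⬝ᵥ w = 0)
    (y : Matrix (α × α) (α × α) F) :
    ∑ t : F, rho (rt (t • w) ψ (by rw [dotProduct_smul, h, smul_zero]) : GL (α × α) F) y =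
      -(∑ t : F, t ^ 2) • ((1 ⊗ₖ vecMulVec w ψ) * y * (1 ⊗ₖ vecMulVec w ψ)) := by
  set N : Matrix (α × α) (α × α) F := (1 : Matrix α α F) ⊗ₖ vecMulVec w ψ with hN
  have h1 : ∀ t : F, ((rt (t • w) ψ (by rw [dotProduct_smul, h, smul_zero]) : GL (α × α) F) :
      Matrix (α × α) (α × α) F) = 1 + t • N := by
    intro t
    rw [coe_rt, smul_vecMulVec, kronecker_smul]
  have hinv : ∀ t : F, (((rt (t • w) ψ (by rw [dotProduct_smul, h, smul_zero]) :
      GL (α × α) F)⁻¹ : GL (α × α) F) : Matrix (α × α) (α × α) F) = 1 - t • N := by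
    intro t
    have e : (rt (t • w) ψ (by rw [dotProduct_smul, h, smul_zero]) : GL (α × α) F)⁻¹ =
        rt ((-t) • w) ψ (by rw [dotProduct_smul, h, smul_zero]) := by
      apply inv_eq_of_mul_eq_one_left
      rw [rt_smul_mul w ψ h]
      apply gl_ext
      intro x
      rw [rt_mulVec, neg_add_cancel, zero_smul, ten_zero_right, add_zero, Units.val_one, one_mulVec]
    rw [e, h1, neg_smul, sub_eq_add_neg]
  have h2 : ∀ t : F, rho (rt (t • w) ψ (by rw [dotProduct_smul, h, smul_zero]) : GL (α × α) F) y =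
      y + t • (N * y - y * N) - t ^ 2 • (N * y * N) := by
    intro t
    rw [rho_apply, h1, hinv]
    rw [add_mul, one_mul, add_mul, mul_sub, mul_one, mul_sub, mul_one]
    simp only [Matrix.smul_mul, Matrix.mul_smul, smul_smul, smul_sub]
    rw [pow_two]
    abel
  rw [Finset.sum_congr rfl fun t _ => h2 t, Finset.sum_sub_distrib, Finset.sum_add_distrib,
    Finset.sum_const, Finset.card_univ, ← Finset.sum_smul, ← Finset.sum_smul]
  have h3 : (∑ t : F, t) = 0 := by
    have := FiniteField.sum_pow_lt_card_sub_one F 1 (by omega)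
    simpa using this
  have h4 : (Fintype.card F) • y = 0 := by
    rw [← Nat.cast_smul_eq_nsmul F, FiniteField.cast_card_eq_zero, zero_smul]
  rw [h3, h4, zero_smul, neg_smul]
  abel

/-- Matrices of the form `gl ⊗ w ψ` for two independent `w`. -/
theorem eq_zero_of_two {w₁ ψ₁ w₂ ψ₂ : α → F} (hw : ¬ ∃ c : F, w₂ = c • w₁) {z : Matrix (α × α) (α × α) F}
    (h1 : ∃ (t : F) (y : Matrix (α × α) (α × α) F), z = t • ((1 ⊗ₖ vecMulVec w₁ ψ₁) * y))
    (h2 : ∃ (t : F) (y : Matrix (α × α) (α × α) F), z = t • ((1 ⊗ₖ vecMulVec w₂ ψ₂) * y)) :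
    z = 0 := by
  obtain ⟨t₁, y₁, e1⟩ := h1
  obtain ⟨t₂, y₂, e2⟩ := h2
  obtain ⟨φ, hφ2, hφ1⟩ := exists_dot_pair hw
  have key : ∀ (w ψ : α → F) (t : F) (y : Matrix (α × α) (α × α) F) (v : α × α → F),
      ∃ u : α → F, (t • (((1 : Matrix α α F) ⊗ₖ vecMulVec w ψ) * y)) *ᵥ v = ten u w := by
    intro w ψ t y v
    refine ⟨t • rc ψ (y *ᵥ v), ?_⟩
    rw [smul_mulVec, ← mulVec_mulVec, kron_vecMulVec_mulVec, one_mulVec, ten_smul_left]
  apply Matrix.mulVec_injective
  funext v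
  rw [Matrix.zero_mulVec]
  obtain ⟨u₁, h3⟩ := key w₁ ψ₁ t₁ y₁ v
  obtain ⟨u₂, h4⟩ := key w₂ ψ₂ t₂ y₂ v
  rw [← e1] at h3
  rw [← e2] at h4
  have h5 := congrArg (rc φ) (h3.symm.trans h4)
  rw [rc_ten, rc_ten, hφ1, hφ2, zero_smul, one_smul] at h5
  rw [h4, ← h5, ten_zero_left]

/-- Rank one matrices on the right suffice. -/
theorem ext_kron_rankOne {X : Type*} [AddCommGroup X] [Module F X]
    {f g : Matrix (α × α) (α × α) F →ₗ[F] X}
    (h : ∀ (a : Matrix α α F) (w ψ : α → F), w ≠ 0 → ψ ≠ 0 →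
      f (a ⊗ₖ vecMulVec w ψ) = g (a ⊗ₖ vecMulVec w ψ)) :
    f = g := by
  apply Matrix.ext_linearMap
  rintro ⟨i, j⟩ ⟨k, l⟩
  ext
  have h1 : Matrix.single (i, j) (k, l) (1 : F) =
      (Matrix.single i k (1 : F)) ⊗ₖ (vecMulVec (Pi.single j (1 : F)) (Pi.single l (1 : F))) := by
    ext ⟨a, b⟩ ⟨c, d⟩
    simp only [Matrix.single_apply, kroneckerMap_apply, Prod.mk.injEq, vecMulVec_apply,
      Pi.single_apply]
    by_cases h1 : i = a <;> by_cases h2 : j = b <;> by_cases h3 : k = c <;> by_cases h4 : l = d <;>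
      simp [h1, h2, h3, h4, eq_comm]
  simp only [LinearMap.comp_apply, Matrix.singleLinearMap_apply]
  rw [h1, h _ _ _ (by simp) (by simp)]

theorem rho_tv {w ψ w' ψ' : α → F} {h : ψ ⬝ᵥ w = 0} (h1 : ψ' ⬝ᵥ w = 0) (h2 : ψ ⬝ᵥ w' = 0) :
    rho (tv w ψ h) (vecMulVec w' ψ') = vecMulVec w' ψ' := by
  have e1 : (tv w ψ h : Matrix α α F) * vecMulVec w' ψ' = vecMulVec w' ψ' := by
    rw [coe_tv, add_mul, one_mul, vecMulVec_mul_vecMulVec, h2, zero_smul, vecMulVec_zero, add_zero]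
  have e2 : vecMulVec w' ψ' * (tv w ψ h : Matrix α α F) = vecMulVec w' ψ' := by
    rw [coe_tv, mul_add, mul_one, vecMulVec_mul_vecMulVec, h1, zero_smul, vecMulVec_zero, add_zero]
  rw [rho_apply, e1]
  conv_lhs => rw [← e2]
  rw [mul_assoc, ← Units.val_mul, mul_inv_cancel, Units.val_one, mul_one]

/-- **The partial traces commute with `M`.** -/
theorem rho_ptr [Fintype F] (hF : 2 < Fintype.card F) (c : Ctx M) (hC : Clo M)
    {g : GL (α × α) F} (hg : g ∈ M) (x : Matrix (α × α) (α × α) F) :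
    rho g (ptr x) = ptr (rho g x) := by
  classical
  have hfin : Finite (GL (α × α) F) := inferInstance
  have h3 := c.three
  let H : Subgroup M := (twr : Subgroup (GL (α × α) F)).subgroupOf M
  obtain ⟨Φ, hΦ1, hΦ2⟩ := Cfsg.Agent.H189.TraceFix.exists_trace (F := F)
    (X := Matrix (α × α) (α × α) F) (G := M) (rho.comp M.subtype) H ptr (by
      intro h hh
      apply LinearMap.ext
      intro x
      exact rho_ptr_of_mem (Subgroup.mem_subgroupOf.1 hh) x)
  have hval : ∀ (a : Matrix α α F) (w' ψ' w ψ : α → F) (h : ψ ⬝ᵥ w = 0), w ≠ 0 → ψ ≠ 0 →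
      ψ' ⬝ᵥ w = 0 → ψ ⬝ᵥ w' = 0 → ∃ (t : F) (y : Matrix (α × α) (α × α) F),
      Φ (a ⊗ₖ vecMulVec w' ψ') - ptr (a ⊗ₖ vecMulVec w' ψ') = t • ((1 ⊗ₖ vecMulVec w ψ) * y) := by
    intro a w' ψ' w ψ h hw hψ h4 h5
    let θ := rtHom c w ψ h
    have hθ : Function.Injective θ := rtHom_injective c h hw hψ
    let C : Subgroup M := θ.range
    let _ : Fintype C := Fintype.ofFinite C
    have hmem : ∀ t, ((θ t : M) : GL (α × α) F) ∈ (twr : Subgroup (GL (α × α) F)) := by
      intro t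
      rw [coe_rtHom]
      exact kr_mem_twr _
    obtain ⟨y, hy⟩ := hΦ2 C (by
        rintro _ ⟨t, rfl⟩
        exact Subgroup.mem_subgroupOf.2 (hmem t)) (by
        rintro g hg _ ⟨t, rfl⟩ hgc
        by_contra hne
        apply hg
        rw [Subgroup.mem_subgroupOf] at hgc ⊢
        have ht : t.toAdd ≠ 0 := by
          intro h0
          apply hne
          have : t = 1 := h0
          rw [this, map_one]
        have h6 : IsRoot ((θ t : M) : GL (α × α) F) :=
          ⟨t.toAdd • w, ψ, _, smul_ne_zero ht hw, hψ, Or.inl rfl⟩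
        have h7 := hC.mem_twr c h6 (g := (g : GL (α × α) F)⁻¹) (M.inv_mem g.2) (by
          rw [inv_inv]; exact hgc)
        exact (Subgroup.inv_mem_iff _).1 h7) (a ⊗ₖ vecMulVec w' ψ') (by
        rintro _ ⟨t, rfl⟩
        change rho (rt (t.toAdd • w) ψ _ : GL (α × α) F) (a ⊗ₖ vecMulVec w' ψ') = _
        rw [rt, rho_kr, map_one, Module.End.one_apply, rho_tv (by
          rw [dotProduct_smul, h4, smul_zero]) h5])
    rw [hy, add_sub_cancel_left]
    have e1 : ∑ c : C, ((rho.comp M.subtype) c : Module.End F (Matrix (α × α) (α × α) F)) y =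
        ∑ t : F, rho (rt (t • w) ψ (by rw [dotProduct_smul, h, smul_zero]) : GL (α × α) F) y := by
      let e : Multiplicative F ≃ C := (MonoidHom.ofInjective hθ).toEquiv
      rw [← Equiv.sum_comp e]
      exact Fintype.sum_equiv Multiplicative.toAdd _ _ fun t => rfl
    rw [e1, sum_rho hF w ψ h, mul_assoc]
    exact ⟨_, _, rfl⟩
  have hΦ : Φ = ptr := by
    apply ext_kron_rankOne
    intro a w' ψ' hw' hψ'
    obtain ⟨w₁, hw₁, hw₁ψ, -⟩ := exists_kill_two (F := F) h3 ψ' ψ'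
    obtain ⟨w₂, hw₂ψ, hw₂⟩ := exists_kill_not_mem (F := F) h3 ψ' w₁
    have hw₂0 : w₂ ≠ 0 := by
      rintro rfl
      exact hw₂ ⟨0, by rw [zero_smul]⟩
    rw [dotProduct_comm] at hw₁ψ hw₂ψ
    obtain ⟨ψ₁, hψ₁, h11, h12⟩ := exists_kill_two (F := F) h3 w₁ w'
    obtain ⟨ψ₂, hψ₂, h21, h22⟩ := exists_kill_two (F := F) h3 w₂ w'
    have := eq_zero_of_two hw₂ (hval a w' ψ' w₁ ψ₁ h11 hw₁ hψ₁ hw₁ψ h12)
      (hval a w' ψ' w₂ ψ₂ h21 hw₂0 hψ₂ hw₂ψ h22)
    exact sub_eq_zero.1 this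
  have h6 := hΦ1 ⟨g, hg⟩
  rw [hΦ] at h6
  exact LinearMap.congr_fun h6 x

end Cfsg.Agent.H886.TW
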