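import Cfsg.Agent.H886.TW.EvenData
import Cfsg.Agent.H886.TW.Odd

/-!
# `Geo.tensorWreathSubgroup m 2` and `twr`; maximality in `SL_9` (helper886)
-/

set_option autoImplicit false
set_option linter.unusedSectionVars false

namespace Cfsg.Agent.H886.TW

universe v

open Matrix Cfsg.Agent.H873 Cfsg.Agent.H872 Cfsg.Agent.H205.EvenTI
open scoped Kronecker

section

variable {F : Type*} [Field F]

/-- The bijection of index sets. -/
def tau (m : ℕ) : (Fin 2 → Fin m) ≃ Fin m × Fin m := finTwoArrowEquiv (Fin m)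

theorem tau_symm_apply {m : ℕ} (p : Fin m × Fin m) : (tau m).symm p = ![p.1, p.2] := rfl

theorem tau_apply {m : ℕ} (x : Fin 2 → Fin m) : tau m x = (x 0, x 1) := rfl

theorem map_tau (m : ℕ) : (Cfsg.Geo.tensorWreathStandard m 2 F).map
    (Cfsg.Geo.glReindex (tau m)).toMonoidHom = (twr : Subgroup (GL (Fin m × Fin m) F)) := by
  have hent : ∀ (g : GL (Fin 2 → Fin m) F) (p q : Fin m × Fin m),
      ((Cfsg.Geo.glReindex (tau m) g : GL (Fin m × Fin m) F) :
        Matrix (Fin m × Fin m) (Fin m × Fin m) F) p q =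
      (g : Matrix (Fin 2 → Fin m) (Fin 2 → Fin m) F) ((tau m).symm p) ((tau m).symm q) :=
    fun g p q => rfl
  apply le_antisymm
  · rw [Subgroup.map_le_iff_le_comap, Cfsg.Geo.tensorWreathStandard, Subgroup.closure_le]
    rintro g (⟨gs, hg⟩ | ⟨σ, hg⟩)
    · change Cfsg.Geo.glReindex (tau m) g ∈ (twr : Subgroup (GL (Fin m × Fin m) F))
      left
      refine ⟨(gs 0, gs 1), ?_⟩
      apply Units.ext
      ext p q
      rw [coe_kr, kroneckerMap_apply, hent, hg, Fin.prod_univ_two]
      rfl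
    · change Cfsg.Geo.glReindex (tau m) g ∈ (twr : Subgroup (GL (Fin m × Fin m) F))
      have hσ : ∀ σ : Equiv.Perm (Fin 2), σ = 1 ∨ σ = Equiv.swap 0 1 := by decide
      rcases hσ σ with rfl | rfl
      · have e : Cfsg.Geo.glReindex (tau m) g = 1 := by
          apply Units.ext
          ext p q
          rw [hent, hg, Units.val_one, one_apply]
          congr 1
          rw [Equiv.Perm.coe_one, Function.comp_id, (tau m).symm.injective.eq_iff]
          exact propext eq_comm
        rw [e]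
        exact Subgroup.one_mem _
      · have e : Cfsg.Geo.glReindex (tau m) g = sw := by
          apply Units.ext
          ext p q
          rw [hent, hg, coe_sw, swM, Matrix.of_apply]
          congr 1
          rw [tau_symm_apply, tau_symm_apply, eq_iff_iff, funext_iff, Fin.forall_fin_two, Prod.ext_iff]
          rfl
        rw [e]
        exact sw_mem_twr
  · have hmem : ∀ A B : GL (Fin m) F, kr (A, B) ∈ (Cfsg.Geo.tensorWreathStandard m 2 F).map
        (Cfsg.Geo.glReindex (tau m)).toMonoidHom := by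
      intro A B
      refine ⟨(Cfsg.Geo.glReindex (tau m)).symm (kr (A, B)), ?_, MulEquiv.apply_symm_apply _ _⟩
      apply Subgroup.subset_closure
      left
      refine ⟨![A, B], fun x y => ?_⟩
      have h1 := hent ((Cfsg.Geo.glReindex (tau m)).symm (kr (A, B))) (tau m x) (tau m y)
      rw [MulEquiv.apply_symm_apply, Equiv.symm_apply_apply, Equiv.symm_apply_apply] at h1
      rw [← h1, coe_kr, kroneckerMap_apply, Fin.prod_univ_two]
      rfl
    have hsw : (sw : GL (Fin m × Fin m) F) ∈ (Cfsg.Geo.tensorWreathStandard m 2 F).map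
        (Cfsg.Geo.glReindex (tau m)).toMonoidHom := by
      refine ⟨(Cfsg.Geo.glReindex (tau m)).symm sw, ?_, MulEquiv.apply_symm_apply _ _⟩
      apply Subgroup.subset_closure
      right
      refine ⟨Equiv.swap 0 1, fun x y => ?_⟩
      have h1 := hent ((Cfsg.Geo.glReindex (tau m)).symm sw) (tau m x) (tau m y)
      rw [MulEquiv.apply_symm_apply, Equiv.symm_apply_apply, Equiv.symm_apply_apply] at h1
      rw [← h1, coe_sw, swM, Matrix.of_apply]
      congr 1
      rw [eq_iff_iff, funext_iff, Fin.forall_fin_two, Prod.ext_iff]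
      rfl
    rintro g (⟨⟨A, B⟩, hAB⟩ | ⟨⟨A, B⟩, hAB⟩)
    · rw [← hAB]
      exact hmem A B
    · have e : g = kr (A, B) * sw := by rw [hAB, mul_assoc, sw_mul_self, mul_one]
      rw [e]
      exact Subgroup.mul_mem _ (hmem A B) hsw

theorem tensorWreathSubgroup_eq {ι : Type} [Fintype ι] [DecidableEq ι] {m : ℕ}
    (e : ι ≃ (Fin 2 → Fin m)) (P : GL ι F) :
    Cfsg.Geo.tensorWreathSubgroup m 2 e P =
      (twr : Subgroup (GL (Fin m × Fin m) F)).map (embGL (e.trans (tau m)) P).toMonoidHom := by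
  rw [← map_tau, Subgroup.map_map]
  unfold Cfsg.Geo.tensorWreathSubgroup
  rw [Subgroup.map_map]
  congr 1
  refine MonoidHom.ext fun g => Units.ext ?_
  ext i j
  simp only [MonoidHom.comp_apply]
  change ((P : Matrix ι ι F) * ((g : Matrix (Fin 2 → Fin m) (Fin 2 → Fin m) F).submatrix e e) *
    ((P⁻¹ : GL ι F) : Matrix ι ι F)) i j =
    ((P : Matrix ι ι F) * ((((g : Matrix (Fin 2 → Fin m) (Fin 2 → Fin m) F).submatrix
      (tau m).symm (tau m).symm)).submatrix (e.trans (tau m)) (e.trans (tau m))) *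
    ((P⁻¹ : GL ι F) : Matrix ι ι F)) i j
  rw [Matrix.submatrix_submatrix]
  have h1 : (tau m).symm ∘ (e.trans (tau m)) = e := by
    funext x
    simp
  rw [h1]

/-- A transvection which is not in `twr`. -/
theorem not_sl_le_twr {m : ℕ} (hm : 2 ≤ m) :
    ¬ Cfsg.Geo.specialLinear (Fin m × Fin m) F ≤ (twr : Subgroup (GL (Fin m × Fin m) F)) := by
  intro h
  let a : Fin m := ⟨0, by omega⟩
  let b : Fin m := ⟨1, by omega⟩
  have hab : a ≠ b := by simp [a, b]
  have h0 : (Pi.single (b, b) 1 : Fin m × Fin m → F) ⬝ᵥ Pi.single (a, a) 1 = 0 := by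
    simp [hab.symm]
  have hT := h (tv_mem_specialLinear (Pi.single (a, a) (1 : F)) (Pi.single (b, b) 1) h0)
  have hent : ∀ p q, (tv (Pi.single (a, a) (1 : F)) (Pi.single (b, b) 1) h0 :
      Matrix (Fin m × Fin m) (Fin m × Fin m) F) p q =
      (if p = q then 1 else 0) + (if p = (a, a) ∧ q = (b, b) then 1 else 0) := by
    intro p q
    rw [coe_tv, Matrix.add_apply, one_apply, vecMulVec_apply, Pi.single_apply, Pi.single_apply]
    congr 1
    by_cases h1 : p = (a, a) <;> by_cases h2 : q = (b, b) <;> simp [h1, h2]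
  rcases hT with ⟨⟨A, B⟩, hAB⟩ | ⟨⟨A, B⟩, hAB⟩
  · have e : ∀ p q : Fin m × Fin m, (A : Matrix (Fin m) (Fin m) F) p.1 q.1 * (B : Matrix (Fin m) (Fin m) F) p.2 q.2 =
        (if p = q then 1 else 0) + (if p = (a, a) ∧ q = (b, b) then 1 else 0) := by
      intro p q
      rw [← hent, ← hAB, coe_kr, kroneckerMap_apply]
    have e1 := e (a, a) (b, b)
    have e2 := e (a, b) (b, b)
    have e3 := e (b, b) (b, b)
    simp [hab, hab.symm] at e1 e2 e3
    rcases e2 with e2 | e2
    · rw [e2, zero_mul] at e1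
      exact zero_ne_one e1
    · rw [e2, mul_zero] at e3
      exact zero_ne_one e3
  · have e : ∀ p q : Fin m × Fin m, (A : Matrix (Fin m) (Fin m) F) p.1 q.1 * (B : Matrix (Fin m) (Fin m) F) p.2 q.2 =
        (if p = q.swap then 1 else 0) + (if p = (a, a) ∧ q.swap = (b, b) then 1 else 0) := by
      intro p q
      have h1 : (kr (A, B) : Matrix (Fin m × Fin m) (Fin m × Fin m) F) p q =
          (tv (Pi.single (a, a) (1 : F)) (Pi.single (b, b) 1) h0 :
            Matrix (Fin m × Fin m) (Fin m × Fin m) F) p q.swap := by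
        rw [hAB, Units.val_mul, coe_sw, swM, Matrix.mul_apply, Finset.sum_eq_single q.swap]
        · simp
        · intro r _ hr
          rw [Matrix.of_apply, if_neg, mul_zero]
          rintro rfl
          exact hr (by simp)
        · intro hh; exact absurd (Finset.mem_univ _) hh
      rw [← hent, ← h1, coe_kr, kroneckerMap_apply]
    have e1 := e (a, a) (a, a)
    have e2 := e (a, b) (b, a)
    have e3 := e (a, a) (b, a)
    simp [hab, hab.symm] at e1 e2 e3
    rcases e3 with e3 | e3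
    · rw [e3, zero_mul] at e2
      exact zero_ne_one e2
    · rw [e3, mul_zero] at e1
      exact zero_ne_one e1

/-- The determinant of the swap of `F³ ⊗ F³`. -/
theorem det_sw : ((sw : GL (Fin 3 × Fin 3) F) : Matrix (Fin 3 × Fin 3) (Fin 3 × Fin 3) F).det = -1 := by
  have e : swM (Fin 3) F = Equiv.Perm.permMatrix F (Equiv.prodComm (Fin 3) (Fin 3)) := by
    ext p q
    rw [swM, Matrix.of_apply, Equiv.Perm.permMatrix, PEquiv.toMatrix_apply, Equiv.toPEquiv_apply]
    simp [eq_comm]
  rw [coe_sw, e, Matrix.det_permutation]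
  have h : Equiv.Perm.sign (Equiv.prodComm (Fin 3) (Fin 3) : Equiv.Perm (Fin 3 × Fin 3)) = -1 := by
    have : (Equiv.prodComm (Fin 3) (Fin 3) : Equiv.Perm (Fin 3 × Fin 3)) =
        Equiv.swap (0, 1) (1, 0) * Equiv.swap (0, 2) (2, 0) * Equiv.swap (1, 2) (2, 1) := by
      decide
    rw [this, Equiv.Perm.sign_mul, Equiv.Perm.sign_mul, Equiv.Perm.sign_swap (by decide),
      Equiv.Perm.sign_swap (by decide), Equiv.Perm.sign_swap (by decide)]
    decide
  rw [h]
  simp

/-- Transport of maximality from `GL (Fin m × Fin m)`. -/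
theorem isMaximalIn_transport {ι : Type} [Fintype ι] [DecidableEq ι] {m : ℕ}
    (h : Cfsg.Geo.IsMaximalIn (Cfsg.Geo.specialLinear (Fin m × Fin m) F)
      ((twr : Subgroup (GL (Fin m × Fin m) F)) ⊓ Cfsg.Geo.specialLinear (Fin m × Fin m) F))
    (e : ι ≃ (Fin 2 → Fin m)) (P : GL ι F) :
    Cfsg.Geo.IsMaximalIn (Cfsg.Geo.specialLinear ι F)
      (Cfsg.Geo.tensorWreathSubgroup m 2 e P ⊓ Cfsg.Geo.specialLinear ι F) := by
  have hdet : ∀ g : GL (Fin m × Fin m) F,
      embGL (e.trans (tau m)) P g ∈ Cfsg.Geo.specialLinear ι F ↔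
      g ∈ Cfsg.Geo.specialLinear (Fin m × Fin m) F := by
    intro g
    rw [mem_specialLinear_iff, mem_specialLinear_iff, coe_embGL, det_emb]
  have hSL : (Cfsg.Geo.specialLinear (Fin m × Fin m) F).map
      (embGL (e.trans (tau m)) P).toMonoidHom = Cfsg.Geo.specialLinear ι F := by
    ext g
    constructor
    · rintro ⟨x, hx, rfl⟩
      exact (hdet x).2 hx
    · intro hg
      refine ⟨(embGL (e.trans (tau m)) P).symm g, (hdet _).1 ?_, ?_⟩
      · rw [MulEquiv.apply_symm_apply]; exact hg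
      · exact MulEquiv.apply_symm_apply _ _
  have hT : ((twr : Subgroup (GL (Fin m × Fin m) F)) ⊓
      Cfsg.Geo.specialLinear (Fin m × Fin m) F).map (embGL (e.trans (tau m)) P).toMonoidHom =
      Cfsg.Geo.tensorWreathSubgroup m 2 e P ⊓ Cfsg.Geo.specialLinear ι F := by
    rw [Subgroup.map_inf _ _ (embGL (e.trans (tau m)) P).toMonoidHom
      (embGL (e.trans (tau m)) P).injective, hSL, tensorWreathSubgroup_eq]
  rw [← hT, ← hSL]
  exact isMaximalIn_map _ h

end

/-- **`(SL_3 ⊗ SL_3).2` is maximal in `SL_9`.** -/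
theorem isMaximalIn_twr {F : Type v} [Field F] [Finite F]
    (hZ : ZStar.{v}) (hS : StrClosed.{v}) (hE : SEConj.{v}) :
    Cfsg.Geo.IsMaximalIn (Cfsg.Geo.specialLinear (Fin 3 × Fin 3) F)
      ((twr : Subgroup (GL (Fin 3 × Fin 3) F)) ⊓ Cfsg.Geo.specialLinear (Fin 3 × Fin 3) F) := by
  have hsl : ∀ (A B : GL (Fin 3) F), (A : Matrix (Fin 3) (Fin 3) F).det = 1 →
      (B : Matrix (Fin 3) (Fin 3) F).det = 1 →
      kr (A, B) ∈ Cfsg.Geo.specialLinear (Fin 3 × Fin 3) F := by
    intro A B hA hB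
    rw [mem_specialLinear_iff, coe_kr, det_kronecker, hA, hB]
    simp
  refine ⟨lt_of_le_of_ne inf_le_right fun h => ?_, fun M h2 h3 => ?_⟩
  · exact not_sl_le_twr (F := F) (m := 3) (by omega) (by rw [← h]; exact inf_le_left)
  · have hM : ∀ (A B : GL (Fin 3) F), (A : Matrix (Fin 3) (Fin 3) F).det = 1 →
        (B : Matrix (Fin 3) (Fin 3) F).det = 1 → kr (A, B) ∈ M :=
      fun A B hA hB => h2 ⟨kr_mem_twr _, hsl A B hA hB⟩
    by_cases hall : AllRt M
    swap
    · right
      exact le_antisymm h3 (sl_le_of_not_allRt hM (by simp) (by simp) (Or.inl (by simp)) hall)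
    left
    -- the swap
    let k₀ : GL (Fin 3 × Fin 3) F := kr ((-1 : GL (Fin 3) F), (1 : GL (Fin 3) F))
    have hk : (k₀ : Matrix (Fin 3 × Fin 3) (Fin 3 × Fin 3) F) = -1 := by
      rw [coe_kr, Units.val_neg, Units.val_one, ← neg_one_smul F (1 : Matrix (Fin 3) (Fin 3) F),
        smul_kronecker, one_kronecker_one, neg_one_smul]
    have hcen : ∀ x, k₀ * x = x * k₀ := by
      intro x
      apply Units.ext
      rw [Units.val_mul, Units.val_mul, hk, neg_mul, mul_neg, one_mul, mul_one]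
    have hdet : k₀ * sw ∈ Cfsg.Geo.specialLinear (Fin 3 × Fin 3) F := by
      rw [mem_specialLinear_iff, Units.val_mul, det_mul, det_sw, hk, det_neg, det_one,
        Fintype.card_prod, Fintype.card_fin]
      norm_num
    have c : Ctx M :=
      { sl := hM
        sws := ⟨k₀, ⟨_, rfl⟩, hcen, h2 ⟨Subgroup.mul_mem _ (kr_mem_twr _) sw_mem_twr, hdet⟩⟩
        all := hall
        three := by simp }
    have hle : M ≤ (twr : Subgroup (GL (Fin 3 × Fin 3) F)) := by
      by_cases h4 : (2 : F) = 0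
      · exact le_twr_of_even hZ hS hE h4 c
      · exact le_twr_of_odd c h4
    exact le_antisymm (le_inf hle h3) h2

end Cfsg.Agent.H886.TW
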